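import Cfsg.Agent.Lib.ClassicalLinear.SympBasic
import Cfsg.Agent.Lib.MinIndex.Orth.Duality

/-!
The root group of a point of a symplectic space in an action: its elements, the two invariants of a
stabiliser and the size of an orbit.
-/

set_option autoImplicit false
set_option linter.unusedSectionVars false

namespace CfsgLib.MinIndexSympGen

open CfsgLib.ClassicalLinear CfsgLib.MinIndexOrth MulAction Module
open scoped Pointwise

universe u

variable {F : Type u} [Field F] {m : ℕ}

local notation "V" => (Fin m ⊕ Fin m → F)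
local notation "Sp" => Matrix.symplecticGroup (Fin m) F
local notation "ω" => Cfsg.sympForm m F

lemma form_zero_left (v : V) : ω 0 v = 0 := by simpa using sympForm_smul_left (0 : F) 0 v

lemma form_zero_right (v : V) : ω v 0 = 0 := by simpa using sympForm_smul_right (0 : F) v 0

lemma form_neg_left (u v : V) : ω (-u) v = -ω u v := by
  simpa using sympForm_smul_left (-1 : F) u v

lemma form_neg_right (u v : V) : ω u (-v) = -ω u v := by
  simpa using sympForm_smul_right (-1 : F) u v

lemma form_sub_left (u u' v : V) : ω (u - u') v = ω u v - ω u' v := by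
  rw [sub_eq_add_neg, sympForm_add_left, form_neg_left, ← sub_eq_add_neg]

lemma form_comm {u v : V} : ω u v = 0 ↔ ω v u = 0 := by rw [sympForm_skew, neg_eq_zero]

/-- Values on two independent vectors may be prescribed. -/
lemma exists_values {a v : V} (h : ∀ r : F, v ≠ r • a) (ha : a ≠ 0) (s t : F) :
    ∃ x : V, ω x a = s ∧ ω x v = t := by
  let φ : V →ₗ[F] F × F :=
    { toFun := fun x => (ω x a, ω x v)
      map_add' := fun x y => by simp [sympForm_add_left]
      map_smul' := fun r x => by simp [sympForm_smul_left] }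
  obtain ⟨b, hb⟩ := exists_sympForm_eq_one ha
  have hb' : ω b a = -1 := by rw [sympForm_skew, hb]
  obtain ⟨k, hk⟩ : ∃ k : V, ω k a = 0 ∧ ω k v ≠ 0 := by
    by_contra hc
    push Not at hc
    refine h (-ω b v) (sub_eq_zero.1 (Omega.sympBilin_nondegenerate _ fun y => ?_))
    rw [Omega.sympBilin_apply, sympForm_skew, sympForm_sub_right, sympForm_smul_right]
    have := hc (y + ω y a • b) (by rw [sympForm_add_left, sympForm_smul_left, hb']; ring)
    rw [sympForm_add_left, sympForm_smul_left] at this
    linear_combination -this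
  refine ⟨-s • b + ((t + s * ω b v) / ω k v) • k, ?_, ?_⟩
  · rw [sympForm_add_left, sympForm_smul_left, sympForm_smul_left, hb', hk.1]; ring
  · rw [sympForm_add_left, sympForm_smul_left, sympForm_smul_left, div_mul_cancel₀ _ hk.2]; ring

/-- The root element of two orthogonal vectors and a scalar. -/
def el (a v : V) (c : F) : Sp := spT (a + v) 1 * spT a (c - 1) * spT v (-1)

lemma el_apply {a v : V} (h : ω v a = 0) (c : F) (x : V) :
    el a v c • x = x + ω x a • v + ω x v • a + (c * ω x a) • a := by
  simp only [el, mul_smul, spT_smul, sympForm_add_left, sympForm_add_right, sympForm_smul_left,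
    sympForm_self, h, form_comm.1 h]
  module

lemma el_conj (g : Sp) (a v : V) (c : F) : g * el a v c * g⁻¹ = el (g • a) (g • v) c := by
  simp only [el, ← conj_spT, ← smul_add, mul_assoc, inv_mul_cancel_left]

lemma el_zero (a : V) (c : F) : el a 0 c = spT a c := by
  refine sp_ext fun x => ?_
  rw [el_apply (form_zero_left a), spT_smul, form_zero_right]
  module

lemma el_one (a : V) : el a (0 : V) (0 : F) = 1 := by rw [el_zero, spT_zero]

lemma el_mul {a v v' : V} (h : ω v a = 0) (h' : ω v' a = 0) (c c' : F) :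
    el a v c * el a v' c' = el a (v + v') (c + c' + ω v' v) := by
  refine sp_ext fun x => ?_
  rw [mul_smul, el_apply h', el_apply h,
    el_apply (by rw [sympForm_add_left, h, h', add_zero] : ω (v + v') a = 0)]
  simp only [sympForm_add_left, sympForm_smul_left, sympForm_add_right, sympForm_self, h',
    form_comm.1 h, form_comm.1 h']
  module

lemma el_inv {a v : V} (h : ω v a = 0) (c : F) : (el a v c)⁻¹ = el a (-v) (-c) := by
  refine inv_eq_of_mul_eq_one_right ?_
  rw [el_mul h (by rw [form_neg_left, h, neg_zero]), add_neg_cancel, form_neg_left, sympForm_self,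
    add_neg_cancel, neg_zero, add_zero, el_one]

lemma el_swap {a v : V} (h : ω v a = 0) : el a v (0 : F) = el v a 0 := by
  refine sp_ext fun x => ?_
  rw [el_apply h, el_apply (form_comm.1 h)]
  module

lemma el_smul_fst {a v : V} (h : ω v a = 0) (α c : F) :
    el (α • a) v c = el a (α • v) (α * α * c) := by
  refine sp_ext fun x => ?_
  rw [el_apply (by rw [sympForm_smul_right, h, mul_zero] : ω v (α • a) = 0),
    el_apply (by rw [sympForm_smul_left, h, mul_zero] : ω (α • v) a = 0)]
  simp only [sympForm_smul_right]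
  module

lemma el_add_fst {a v : V} (h : ω v a = 0) (κ c : F) : el a (v + κ • a) c = el a v (c + 2 * κ) := by
  refine sp_ext fun x => ?_
  rw [el_apply h, el_apply (by rw [sympForm_add_left, h, sympForm_smul_left, sympForm_self, mul_zero,
    add_zero] : ω (v + κ • a) a = 0)]
  simp only [sympForm_add_right, sympForm_smul_right]
  module

lemma el_split {a v : V} (h : ω v a = 0) (c : F) : el a v c = el a v 0 * spT a c := by
  rw [← el_zero, el_mul h (form_zero_left a), add_zero, form_zero_left, add_zero, zero_add]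

lemma el_split' {a v : V} (h : ω v a = 0) (c : F) : el a v c = spT a c * el a v 0 := by
  rw [← el_zero, el_mul (form_zero_left a) h, zero_add, form_zero_right, add_zero, add_zero]

/-- The root group of a point. -/
def uGrp (a : V) : Subgroup Sp where
  carrier := {g | ∃ v, ω v a = 0 ∧ ∃ c, g = el a v c}
  one_mem' := ⟨0, form_zero_left a, 0, (el_one a).symm⟩
  mul_mem' := by
    rintro _ _ ⟨v, h, c, rfl⟩ ⟨v', h', c', rfl⟩
    exact ⟨v + v', by rw [sympForm_add_left, h, h', add_zero], _, el_mul h h' c c'⟩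
  inv_mem' := by
    rintro _ ⟨v, h, c, rfl⟩
    exact ⟨-v, by rw [form_neg_left, h, neg_zero], _, el_inv h c⟩

lemma el_mem_uGrp {a v : V} (h : ω v a = 0) (c : F) : el a v c ∈ uGrp a := ⟨v, h, c, rfl⟩

lemma mem_smul_iff {g : Sp} {A : AddSubgroup V} {x : V} : x ∈ g • A ↔ g⁻¹ • x ∈ A :=
  AddSubgroup.mem_pointwise_smul_iff_inv_smul_mem

variable {Ω : Type*} [MulAction (Matrix.symplecticGroup (Fin m) F) Ω]

/-- The transvections at a point fixing `z`. -/
def cz (a : V) (z : Ω) : AddSubgroup F where
  carrier := {c | spT a c • z = z}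
  zero_mem' := by simp [spT_zero]
  add_mem' := fun {c d} hc hd => by
    show spT a (c + d) • z = z
    rw [← spT_add, mul_smul, hd, hc]
  neg_mem' := fun {c} hc => by
    show spT a (-c) • z = z
    rw [← spT_inv, inv_smul_eq_iff, hc]

lemma mem_cz {a : V} {z : Ω} {c : F} : c ∈ cz a z ↔ spT a c • z = z := Iff.rfl

/-- The vectors of the root elements at a point fixing `z`. -/
def az (a : V) (z : Ω) : AddSubgroup V where
  carrier := {v | ω v a = 0 ∧ ∃ c, el a v c • z = z}
  zero_mem' := ⟨form_zero_left a, 0, by rw [el_one, one_smul]⟩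
  add_mem' := by
    rintro v v' ⟨h, c, hc⟩ ⟨h', c', hc'⟩
    exact ⟨by rw [sympForm_add_left, h, h', add_zero], _,
      by rw [← el_mul h h' c c', mul_smul, hc', hc]⟩
  neg_mem' := by
    rintro v ⟨h, c, hc⟩
    exact ⟨by rw [form_neg_left, h, neg_zero], -c, by rw [← el_inv h, inv_smul_eq_iff, hc]⟩

lemma smul_mem_az (a : V) (z : Ω) (κ : F) : κ • a ∈ az a z := by
  refine ⟨by rw [sympForm_smul_left, sympForm_self, mul_zero], -2 * κ, ?_⟩
  rw [← zero_add (κ • a), el_add_fst (form_zero_left a), el_zero,
    show -2 * κ + 2 * κ = 0 by ring, spT_zero, one_smul]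

lemma mem_az_add {a v : V} {z : Ω} (κ : F) : v + κ • a ∈ az a z ↔ v ∈ az a z := by
  refine ⟨fun h => ?_, fun h => add_mem h (smul_mem_az a z κ)⟩
  simpa using sub_mem h (smul_mem_az a z κ)

lemma el_fix_iff {a v : V} {z : Ω} (h : ω v a = 0) {c c' : F} (hc : el a v c • z = z) :
    el a v c' • z = z ↔ c' - c ∈ cz a z := by
  have e : el a v c' = spT a (c' - c) * el a v c := by
    rw [el_split' h c, ← mul_assoc, spT_add, sub_add_cancel, ← el_split' h]
  rw [e, mul_smul, hc, mem_cz]

/-- Root elements act on the vectors orthogonal to the point as translations along it. -/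
lemma el_smul_perp {a v x : V} (h : ω v a = 0) (c : F) (hx : ω x a = 0) :
    el a v c • x = x + ω x v • a := by
  rw [el_apply h, hx]; simp

lemma el_smul_self {a v : V} (h : ω v a = 0) (c : F) : el a v c • a = a := by
  rw [el_smul_perp h c (sympForm_self a), form_comm.1 h]; simp

lemma el_commute_spT {a v : V} (h : ω v a = 0) (c d : F) : el a v c * spT a d = spT a d * el a v c := by
  rw [← el_zero, el_mul h (form_zero_left a), el_mul (form_zero_left a) h, form_zero_left,
    form_zero_right, add_zero, zero_add, add_comm d c]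

/-- Conjugation in the root group. -/
lemma el_conj_el {a v x : V} (h : ω v a = 0) (hx : ω x a = 0) (c d : F) :
    el a v c * el a x d * (el a v c)⁻¹ = el a x (d + 2 * ω x v) := by
  rw [el_conj, el_smul_self h, el_smul_perp h c hx, el_add_fst hx]

lemma cz_conj {a : V} (g : Sp) (z : Ω) : cz (g • a) (g • z) = cz a z := by
  ext c
  rw [mem_cz, mem_cz, ← conj_spT, mul_smul, mul_smul, inv_smul_smul, smul_left_cancel_iff]

lemma cz_smul_vec {a : V} {α : F} (hα : α ≠ 0) (z : Ω) :
    cz a z = (cz (α • a) z).map (AddMonoidHom.mulLeft (α * α)) := by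
  ext c
  simp only [AddSubgroup.mem_map, AddMonoidHom.coe_mulLeft, mem_cz, spT_smul_vec, ← pow_two]
  refine ⟨fun h => ⟨c / α ^ 2, ?_, mul_div_cancel₀ _ (pow_ne_zero 2 hα)⟩, ?_⟩
  · rwa [mul_div_cancel₀ _ (pow_ne_zero 2 hα)]
  · rintro ⟨d, hd, rfl⟩; exact hd

lemma mem_az_conj {a x : V} (g : Sp) (z : Ω) :
    g • x ∈ az (g • a) (g • z) ↔ x ∈ az a z := by
  show (ω (g • x) (g • a) = 0 ∧ _) ↔ _
  rw [sympForm_smul]
  refine and_congr_right fun _ => exists_congr fun c => ?_
  rw [← el_conj, mul_smul, mul_smul, inv_smul_smul, smul_left_cancel_iff]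

lemma mem_az_smul_vec {a x : V} {α : F} (hα : α ≠ 0) (z : Ω) :
    x ∈ az (α • a) z ↔ α • x ∈ az a z := by
  show (ω x (α • a) = 0 ∧ _) ↔ (ω (α • x) a = 0 ∧ _)
  rw [sympForm_smul_right, sympForm_smul_left]
  constructor
  · rintro ⟨h, c, hc⟩
    refine ⟨h, α * α * c, ?_⟩
    rwa [← el_smul_fst ((mul_eq_zero.1 h).resolve_left hα)]
  · rintro ⟨h, c, hc⟩
    refine ⟨h, c / (α * α), ?_⟩
    rwa [el_smul_fst ((mul_eq_zero.1 h).resolve_left hα), mul_div_cancel₀ _ (mul_ne_zero hα hα)]

/-- The two invariants are constant on orbits of the root group. -/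
lemma invariants_uGrp {a : V} (z : Ω) (g : uGrp a) :
    az a (g • z) = az a z ∧ cz a (g • z) = cz a z := by
  obtain ⟨_, v, h, c, rfl⟩ := g
  refine ⟨AddSubgroup.ext fun x => ?_, ?_⟩
  · by_cases hx : ω x a = 0
    · have := mem_az_conj (a := a) (x := x) (el a v c) z
      rw [el_smul_self h, el_smul_perp h c hx, mem_az_add] at this
      exact this
    · exact ⟨fun hm => absurd hm.1 hx, fun hm => absurd hm.1 hx⟩
  · have := cz_conj (a := a) (el a v c) z
    rw [el_smul_self h] at this
    exact this

variable [Finite F]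

lemma chi_eq_one_comm {x y : V} : chi F (ω x y) = 1 ↔ chi F (ω y x) = 1 := by
  rw [sympForm_skew y x, AddChar.map_neg_eq_inv, inv_eq_one]

/-- The pairing. -/
def formHom : V →+ V →+ F :=
  AddMonoidHom.mk' (fun x => AddMonoidHom.mk' (fun y => ω x y) (fun y y' => sympForm_add_right x y y'))
    (fun x x' => AddMonoidHom.ext fun y => sympForm_add_left x x' y)

lemma formHom_nondeg (x : V) (h : ∀ y, chi F (formHom x y) = 1) : x = 0 := by
  refine Omega.sympBilin_nondegenerate x fun y => ?_
  rw [Omega.sympBilin_apply]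
  refine eq_zero_of_chi fun s => ?_
  have := h (s • y)
  change chi F (ω x (s • y)) = 1 at this
  rwa [sympForm_smul_right, mul_comm] at this

/-- The annihilator of a subgroup of vectors. -/
noncomputable def dual (A : AddSubgroup V) : AddSubgroup V := perpG formHom A

lemma mem_dual {A : AddSubgroup V} {x : V} : x ∈ dual A ↔ ∀ y ∈ A, chi F (ω x y) = 1 := Iff.rfl

lemma card_vectors : Nat.card V = Nat.card F ^ (2 * m) := by
  rw [Nat.card_fun, Nat.card_sum, Nat.card_fin, two_mul]

lemma card_mul_dual (A : AddSubgroup V) : Nat.card A * Nat.card (dual A) = Nat.card F ^ (2 * m) := by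
  rw [dual, card_mul_perpG formHom_nondeg, card_vectors]

lemma dual_dual (A : AddSubgroup V) : dual (dual A) = A := by
  refine (AddSubgroup.eq_of_le_of_card_ge (fun a ha x hx => ?_) ?_).symm
  · exact chi_eq_one_comm.1 (hx a ha)
  · have h1 := card_mul_dual (dual A)
    rw [← card_mul_dual A, mul_comm (Nat.card A)] at h1
    exact (Nat.eq_of_mul_eq_mul_left Nat.card_pos h1).le

lemma mem_dual_smul {A : AddSubgroup V} (g : Sp) {x : V} :
    g • x ∈ dual (g • A) ↔ x ∈ dual A := by
  simp only [mem_dual]
  refine ⟨fun h y hy => ?_, fun h y hy => ?_⟩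
  · have := h (g • y) (AddSubgroup.smul_mem_pointwise_smul y g A hy)
    rwa [sympForm_smul] at this
  · obtain ⟨y, hy', rfl⟩ := (AddSubgroup.mem_smul_pointwise_iff_exists _ g A).1 hy
    rw [sympForm_smul]; exact h y hy'

/-- A point's line lies in both a projection and its annihilator. -/
lemma dual_az {a : V} (z : Ω) :
    (∀ κ : F, κ • a ∈ dual (az a z)) ∧ ∀ x ∈ dual (az a z), ω x a = 0 := by
  refine ⟨fun κ => mem_dual.2 fun y hy => ?_, fun x hx => eq_zero_of_chi fun s => ?_⟩
  · rw [sympForm_smul_left, form_comm.1 hy.1, mul_zero, AddChar.map_zero_eq_one]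
  · have := mem_dual.1 hx _ (smul_mem_az a z s)
    rwa [sympForm_smul_right, mul_comm] at this

/-- The number of vectors orthogonal to a point. -/
lemma card_perp {a : V} (ha : a ≠ 0) :
    Nat.card {v : V // ω v a = 0} * Nat.card F = Nat.card F ^ (2 * m) := by
  obtain ⟨b, hb⟩ := exists_sympForm_eq_one ha
  have hb' : ω b a = -1 := by rw [sympForm_skew, hb]
  rw [← card_vectors (F := F) (m := m), ← Nat.card_prod]
  refine Nat.card_congr
    { toFun := fun p => (p.1 : V) + p.2 • b
      invFun := fun x => (⟨x + ω x a • b, by rw [sympForm_add_left, sympForm_smul_left, hb']; ring⟩,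
        -ω x a)
      left_inv := fun p => ?_
      right_inv := fun x => by show x + ω x a • b + -ω x a • b = x; module }
  have e : ω ((p.1 : V) + p.2 • b) a = -p.2 := by
    rw [sympForm_add_left, sympForm_smul_left, p.1.2, hb']; ring
  exact Prod.ext (Subtype.ext (by simp only [e]; module)) (by simp [e])

/-- The orbit of a point under the root group: its size times the fixed transvections is the
annihilator of the projection. -/
theorem card_orbit_uGrp {a : V} (ha : a ≠ 0) (z : Ω) :
    Nat.card (orbit (uGrp a) z) * Nat.card (cz a z) = Nat.card (dual (az a z)) := by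
  classical
  choose c hc using fun v : az a z => v.2.2
  let π : {v : V // ω v a = 0} × F → orbit (uGrp a) z := fun p =>
    ⟨el a (p.1 : V) p.2 • z, ⟨⟨_, el_mem_uGrp p.1.2 p.2⟩, rfl⟩⟩
  have hsurj : Function.Surjective π := by
    rintro ⟨_, ⟨⟨_, v, h, d, rfl⟩, rfl⟩⟩
    exact ⟨(⟨v, h⟩, d), rfl⟩
  choose sec hsec using hsurj
  let e : orbit (uGrp a) z × (az a z × cz a z) → {v : V // ω v a = 0} × F := fun p =>
    (⟨((sec p.1).1 : V) + p.2.1, by rw [sympForm_add_left, (sec p.1).1.2, p.2.1.2.1, add_zero]⟩,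
      (sec p.1).2 + (c p.2.1 + p.2.2) + ω (p.2.1 : V) ((sec p.1).1 : V))
  have hπ : ∀ p, π (e p) = p.1 := fun p => by
    refine Subtype.ext ?_
    show el a _ _ • z = _
    rw [← el_mul (sec p.1).1.2 p.2.1.2.1, mul_smul, (el_fix_iff p.2.1.2.1 (hc p.2.1)).2
      (by rw [add_sub_cancel_left]; exact p.2.2.2)]
    exact congrArg Subtype.val (hsec p.1)
  have he : Function.Bijective e := by
    refine ⟨fun p r h => ?_, fun r => ?_⟩
    · have h1 : p.1 = r.1 := by rw [← hπ p, ← hπ r, h]
      obtain ⟨o, v, k⟩ := p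
      obtain ⟨o', v', k'⟩ := r
      subst h1
      simp only [e, Prod.mk.injEq, Subtype.mk.injEq, add_right_inj, SetLike.coe_eq_coe] at h
      obtain ⟨hv, hk⟩ := h
      subst hv
      simp only [add_left_inj, add_right_inj, SetLike.coe_eq_coe] at hk
      subst hk
      rfl
    · obtain ⟨⟨v, hv⟩, d⟩ := r
      obtain ⟨⟨v0, hv0⟩, d0, hs0⟩ : ∃ v0 d0, sec (π (⟨v, hv⟩, d)) = (v0, d0) := ⟨_, _, rfl⟩
      have h0 : el a v0 d0 • z = el a v d • z := by
        have := congrArg Subtype.val (hsec (π (⟨v, hv⟩, d)))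
        rw [hs0] at this
        exact this
      have hw : ω (v - v0) a = 0 := by rw [form_sub_left, hv, hv0, sub_zero]
      have hfix : el a (v - v0) (d - d0 - ω (v - v0) v0) • z = z := by
        refine smul_left_cancel (el a v0 d0) ?_
        rw [← mul_smul, el_mul hv0 hw, h0, add_sub_cancel,
          show d0 + (d - d0 - ω (v - v0) v0) + ω (v - v0) v0 = d by ring]
      refine ⟨(π (⟨v, hv⟩, d), ⟨v - v0, hw, _, hfix⟩,
        ⟨d - d0 - ω (v - v0) v0 - c ⟨v - v0, hw, _, hfix⟩,
          (el_fix_iff hw (hc ⟨v - v0, hw, _, hfix⟩)).1 hfix⟩), ?_⟩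
      simp only [e, hs0, Prod.mk.injEq, Subtype.mk.injEq]
      exact ⟨add_sub_cancel _ _, by ring⟩
  have h := Nat.card_eq_of_bijective e he
  rw [Nat.card_prod, Nat.card_prod, Nat.card_prod, card_perp ha, ← card_mul_dual (az a z)] at h
  refine Nat.eq_of_mul_eq_mul_left (Nat.card_pos (α := az a z)) ?_
  rw [← h]; ring

end CfsgLib.MinIndexSympGen
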