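import Cfsg.Agent.Lib.MinIndex.SympGen.Types

/-!
With few points, every projection is of one of the three kinds, and the orbits with given invariants
are unique.
-/

set_option autoImplicit false
set_option linter.unusedSectionVars false
set_option maxHeartbeats 1000000

namespace CfsgLib.MinIndexSympGen

open CfsgLib.ClassicalLinear CfsgLib.MinIndexOrth MulAction Module
open scoped Pointwise

universe u

variable {F : Type u} [Field F] [Finite F] {m : ℕ}

local notation "V" => (Fin m ⊕ Fin m → F)
local notation "Sp" => Matrix.symplecticGroup (Fin m) F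
local notation "ω" => Cfsg.sympForm m F
local notation "q" => Nat.card F

lemma dual_smul (g : Sp) (A : AddSubgroup V) : dual (g • A) = g • dual A := by
  ext x
  rw [mem_smul_iff (A := dual A), ← mem_dual_smul (A := A) g (x := g⁻¹ • x), smul_inv_smul]

variable {Ω : Type*} [MulAction (Matrix.symplecticGroup (Fin m) F) Ω] [Finite Ω]

lemma card_kind_le (a : V) (z : Ω) : Nat.card (kind a z) ≤ Nat.card Ω :=
  Nat.card_le_card_of_injective _ Subtype.val_injective

/-- A doubled family, or one with fixed transvections in even characteristic, is heavy. -/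
lemma weight_le {a : V} (ha : a ≠ 0) {z : Ω} (hC : cz a z ≠ ⊤) {ι : Type*} [Finite ι] (zk : ι → Ω)
    (hA : ∀ k, az a (zk k) = az a z) (hCk : ∀ k, cz a (zk k) = cz a z)
    (hK : ∀ k k', zk k' ∈ orbit (uGrp a) (zk k) → k = k') {J : Type*} [Finite J] (g : J → Sp)
    (hg : ∀ j, g j • a = a) (hJ : Function.Injective fun j => g j • az a z)
    (hn : 1 ≤ Nat.card ι) (h : 2 ≤ Nat.card ι ∨ ((2 : F) = 0 ∧ cz a z ≠ ⊥)) :
    (q + 2) * (Nat.card J * Nat.card (dual (az a z))) ≤ q * Nat.card (kind a z) := by
  have hf := card_family ha zk hA hCk hK g hg hJ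
  have hw : (q + 2) * Nat.card (cz a z) ≤ Nat.card ι * Nat.card (scalOrb (cz a z)) * q := by
    by_cases hC0 : cz a z = ⊥
    · rcases h with h | h
      · rw [hC0, AddSubgroup.card_bot, mul_one]
        have h1 := Nat.mul_le_mul h (one_le_card_scalOrb (⊥ : AddSubgroup F))
        have h2 : 1 < q := Finite.one_lt_card
        calc q + 2 ≤ 2 * 1 * q := by omega
          _ ≤ _ := Nat.mul_le_mul_right q h1
      · exact absurd hC0 h.2
    · obtain ⟨h1, h2⟩ := scal_weight hC hC0
      rcases h with h | h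
      · exact h1.trans (Nat.mul_le_mul_right q (Nat.mul_le_mul_right _ h))
      · exact (h2 h.1).trans (Nat.mul_le_mul_right q (Nat.le_mul_of_pos_left _ hn))
  refine Nat.le_of_mul_le_mul_right (c := Nat.card (cz a z)) ?_ Nat.card_pos
  calc (q + 2) * (Nat.card J * Nat.card (dual (az a z))) * Nat.card (cz a z)
      = (q + 2) * Nat.card (cz a z) * (Nat.card J * Nat.card (dual (az a z))) := by ring
    _ ≤ Nat.card ι * Nat.card (scalOrb (cz a z)) * q * (Nat.card J * Nat.card (dual (az a z))) :=
        Nat.mul_le_mul_right _ hw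
    _ = q * (Nat.card ι * Nat.card (scalOrb (cz a z)) * Nat.card J * Nat.card (dual (az a z))) := by ring
    _ ≤ q * (Nat.card (kind a z) * Nat.card (cz a z)) := Nat.mul_le_mul_left q hf
    _ = _ := by ring

/-- Any family weighs at least half, and in even characteristic all, of its orbits. -/
lemma family_le {a : V} (ha : a ≠ 0) {z : Ω} (hC : cz a z ≠ ⊤) {ι : Type*} [Finite ι] (zk : ι → Ω)
    (hA : ∀ k, az a (zk k) = az a z) (hCk : ∀ k, cz a (zk k) = cz a z)
    (hK : ∀ k k', zk k' ∈ orbit (uGrp a) (zk k) → k = k') {J : Type*} [Finite J] (g : J → Sp)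
    (hg : ∀ j, g j • a = a) (hJ : Function.Injective fun j => g j • az a z) :
    Nat.card ι * Nat.card J * Nat.card (dual (az a z)) ≤ 2 * Nat.card (kind a z) ∧
    ((2 : F) = 0 → Nat.card ι * Nat.card J * Nat.card (dual (az a z)) ≤ Nat.card (kind a z)) := by
  have hf := card_family ha zk hA hCk hK g hg hJ
  obtain ⟨w1, w2⟩ := card_le_weight hC
  have key : ∀ s : ℕ, q * Nat.card (cz a z) ≤ s * Nat.card (scalOrb (cz a z)) * q →
      Nat.card ι * Nat.card J * Nat.card (dual (az a z)) ≤ s * Nat.card (kind a z) := by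
    intro s hs
    refine Nat.le_of_mul_le_mul_right (c := q * Nat.card (cz a z)) ?_
      (Nat.mul_pos Nat.card_pos Nat.card_pos)
    calc Nat.card ι * Nat.card J * Nat.card (dual (az a z)) * (q * Nat.card (cz a z))
        ≤ Nat.card ι * Nat.card J * Nat.card (dual (az a z)) * (s * Nat.card (scalOrb (cz a z)) * q) :=
          Nat.mul_le_mul_left _ hs
      _ = s * q * (Nat.card ι * Nat.card (scalOrb (cz a z)) * Nat.card J * Nat.card (dual (az a z))) := by
          ring
      _ ≤ s * q * (Nat.card (kind a z) * Nat.card (cz a z)) := Nat.mul_le_mul_left _ hf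
      _ = _ := by ring
  exact ⟨key 2 w1, fun h => by simpa using key 1 (by simpa using w2 h)⟩

variable (S : Setup F m Ω)
include S

lemma not_T1_of_odd (h2 : (2 : F) ≠ 0) {a : V} (ha : a ≠ 0) (z : Ω) : ¬ IsT1 a z := by
  intro h
  apply S.moved a ha z
  obtain ⟨v, hva, hv⟩ : ∃ v, ω v a = 0 ∧ ∀ r : F, v ≠ r • a := by
    obtain ⟨Q, hQ, hQ', hQ2⟩ := S.qQ
    by_contra hc
    push Not at hc
    have hle : perpGrp a ≤ lineGrp a := fun x hx => by
      obtain ⟨r, hr⟩ := hc x hx
      exact ⟨r, hr.symm⟩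
    have := AddSubgroup.card_le_of_le hle
    rw [card_perpGrp S ha, card_lineGrp ha, hQ'] at this
    have := Nat.mul_le_mul_left q hQ2
    have h3 := S.three_le
    nlinarith
  rw [eq_top_iff]
  intro c _
  obtain ⟨x, hxa, hxv⟩ := exists_values hv ha (0 : F) (c / 2)
  have := two_form_mem (z := z) (a := a) (x := x) (y := v) (h ▸ hxa) (h ▸ hva)
  rwa [hxv, mul_div_cancel₀ _ h2] at this

/-- The projection of a stabiliser, if neither the line nor everything, is the orthogonal of an
isotropic line, and its translates are the points of the quotient space. -/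
theorem classify {a : V} (ha : a ≠ 0) (z : Ω) (h0 : ¬ IsT0 a z) (h1 : ¬ IsT1 a z) :
    ∃ v, IsLine a z v ∧
      Nat.card (members a (dual (az a z))) * (q - 1) + 1 = q ^ (2 * m - 2) ∧
      Nat.card (dual (az a z)) = q * q := by
  classical
  obtain ⟨Q, hQ, hQ', hQ2⟩ := S.qQ
  have hperp := card_perpGrp S ha
  rw [hQ'] at hperp ⊢
  have hq3 := S.three_le
  set A := az a z with hA
  set D := dual A with hD
  have hAD : Nat.card A * Nat.card D = q * q * Q := by rw [hD, card_mul_dual, hQ]
  have hl1 : lineGrp a ≤ D := by rintro _ ⟨κ, rfl⟩; exact (dual_az z).1 κ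
  have hl2 : D ≤ perpGrp a := fun x hx => (dual_az z).2 x hx
  have hlne : D ≠ lineGrp a := by
    intro e
    rw [e, card_lineGrp ha] at hAD
    refine h1 (AddSubgroup.eq_of_le_of_card_ge (az_le a z) (le_of_eq ?_))
    rw [hperp]
    refine Nat.eq_of_mul_eq_mul_right (show 0 < q by omega) ?_
    rw [hAD]; ring
  have hpne : D ≠ perpGrp a := by
    intro e
    rw [e, hperp] at hAD
    refine h0 (AddSubgroup.eq_of_le_of_card_ge (line_le_az a z) (le_of_eq ?_)).symm
    rw [card_lineGrp ha]
    exact Nat.eq_of_mul_eq_mul_right (show 0 < q * Q by nlinarith) (hAD.trans (by ring))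
  have hDgt : q < Nat.card D := by
    rw [← card_lineGrp (a := a) ha]
    exact lt_of_le_of_ne (AddSubgroup.card_le_of_le hl1) fun e =>
      hlne (AddSubgroup.eq_of_le_of_card_ge hl1 e.ge).symm
  obtain ⟨p, hp⟩ := CharP.exists F
  have : Fact p.Prime := ⟨CharP.char_is_prime F p⟩
  have hpp : p.Prime := Fact.out
  obtain ⟨k, hk⟩ : ∃ k : ℕ, q = p ^ k := by
    have := Fintype.ofFinite F
    obtain ⟨n, -, hn⟩ := FiniteField.card F p
    exact ⟨n, by rw [Nat.card_eq_fintype_card, hn]⟩
  have hdvd : ∀ N, Nat.card D ∣ q ^ N → ∃ i, Nat.card D = p ^ i := fun N hN => by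
    rw [hk, ← pow_mul] at hN
    obtain ⟨i, -, hi⟩ := (Nat.dvd_prime_pow hpp).1 hN
    exact ⟨i, hi⟩
  obtain ⟨i, hi⟩ := hdvd (2 * m) (Dvd.intro_left _ (card_mul_dual A))
  have hDlt : Nat.card D * p ≤ q * Q := by
    have h : Nat.card D ∣ Nat.card (perpGrp a) := AddSubgroup.card_dvd_of_le hl2
    obtain ⟨t, ht⟩ := h
    have hne : t ≠ 1 := fun e => hpne (AddSubgroup.eq_of_le_of_card_ge hl2 (by rw [ht, e, mul_one]))
    rw [hperp] at ht
    have htd : t ∣ p ^ (k * (2 * m)) := by
      rw [pow_mul, ← hk, hQ]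
      exact Dvd.intro_left (Nat.card D * q) (by rw [mul_assoc, mul_comm q t, ← mul_assoc, ← ht]; ring)
    obtain ⟨j, -, hj⟩ := (Nat.dvd_prime_pow hpp).1 htd
    have hpt : p ≤ t := by
      rw [hj]
      refine Nat.le_self_pow (fun e => hne ?_) _
      rw [hj, e, pow_zero]
    rw [ht]
    exact Nat.mul_le_mul_left _ hpt
  choose g hg hgD using fun B : members a D => B.2
  have hgJ : Function.Injective fun B : members a D => g B • A := fun B B' h => by
    have := congrArg dual h
    simp only [dual_smul, ← hD, hgD] at this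
    exact Subtype.ext this
  have hfam := family_le ha (S.moved a ha z) (fun _ : Unit => z) (fun _ => rfl) (fun _ => rfl)
    (fun _ _ _ => rfl) g hg hgJ
  rw [Nat.card_unique, one_mul, ← hD] at hfam
  have hkind := card_kind_le a z
  obtain ⟨u, huD, hul⟩ : ∃ u, u ∈ D ∧ u ∉ lineGrp a := by
    by_contra hc
    push Not at hc
    have := AddSubgroup.card_le_of_le (show D ≤ lineGrp a from hc)
    rw [card_lineGrp ha] at this
    omega
  have hu : u ∈ perpGrp a := hl2 huD
  have hinc := incidence hl1 hl2 ha hu hul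
  rw [hperp] at hinc
  set μ := mult a D u with hμ
  set β := Nat.card (members a D) with hβ
  have hμpos : 0 < μ := by
    have : Nonempty {B : members a D // u ∈ (B : AddSubgroup V)} :=
      ⟨⟨⟨D, 1, one_smul _ a, one_smul _ D⟩, huD⟩⟩
    exact Nat.card_pos
  have hqQ : q ≤ q * Q := Nat.le_mul_of_pos_right _ (by nlinarith)
  have hDp : Nat.card D ≤ q * Q := le_trans (Nat.le_mul_of_pos_right _ hpp.pos) hDlt
  obtain ⟨e, he⟩ : ∃ e, Nat.card D = q + e + 1 := ⟨Nat.card D - q - 1, by omega⟩
  obtain ⟨E, hE⟩ : ∃ E, q * Q = q + E + 1 := ⟨q * Q - q - 1, by omega⟩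
  rw [he, hE, show q + e + 1 - q = e + 1 by omega, show q + E + 1 - q = E + 1 by omega] at hinc
  have hβμ : μ < β := by
    by_contra hle
    have h5 : e < E := by
      have := Nat.mul_le_mul_left (Nat.card D) hpp.two_le
      omega
    have := Nat.mul_le_mul_right (e + 1) (not_lt.1 hle)
    nlinarith
  have hsmall := S.small
  rw [hQ] at hsmall
  obtain ⟨q₁, hq₁⟩ : ∃ q₁, q = q₁ + 1 := ⟨q - 1, by omega⟩
  -- many translates through a vector
  have hnotbig : ((2 : F) = 0 → μ ≤ 1) ∧ μ ≤ 2 := by
    refine ⟨fun h2 => ?_, ?_⟩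
    · by_contra hc
      have hb := (hfam.2 h2).trans hkind
      rw [he] at hb
      have h2E : β * (q + e + 1) = μ * (E + 1) + β * q := by rw [← hinc]; ring
      rw [h2E] at hb
      rw [hq₁, Nat.add_sub_cancel] at hsmall
      have : 2 * (E + 1) + 3 * q ≤ Nat.card Ω := le_trans
        (Nat.add_le_add (Nat.mul_le_mul_right _ (by omega)) (Nat.mul_le_mul_right _ (by omega))) hb
      have h3 := Nat.mul_le_mul_left q₁ this
      rw [hq₁] at hE h3 hq3
      nlinarith
    · by_contra hc
      have hb := hfam.1.trans (Nat.mul_le_mul_left 2 hkind)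
      rw [he] at hb
      have h2E : β * (q + e + 1) = μ * (E + 1) + β * q := by rw [← hinc]; ring
      rw [h2E] at hb
      rw [hq₁, Nat.add_sub_cancel] at hsmall
      have : 3 * (E + 1) + 4 * q ≤ 2 * Nat.card Ω := le_trans
        (Nat.add_le_add (Nat.mul_le_mul_right _ (by omega)) (Nat.mul_le_mul_right _ (by omega))) hb
      have h3 := Nat.mul_le_mul_left q₁ this
      rw [hq₁] at hE h3 hq3
      nlinarith
  have hp2 : (2 : F) = 0 ↔ p = 2 := by
    constructor
    · intro h2
      exact (Nat.prime_dvd_prime_iff_eq hpp Nat.prime_two).1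
        ((CharP.cast_eq_zero_iff F p 2).1 (by exact_mod_cast h2))
    · intro h; subst h; exact CharTwo.two_eq_zero
  have hμp : μ < p := by
    by_cases h2 : p = 2
    · have := hnotbig.1 (hp2.2 h2); omega
    · have := hpp.two_le; have := hnotbig.2; omega
  -- small translates
  have hDle : Nat.card D ≤ q * q := by
    by_contra hbig
    obtain ⟨v, hva, hvD⟩ : ∃ v, v ∈ perpGrp a ∧ v ∉ lineGrp a := ⟨u, hu, hul⟩
    have hmem : ∀ B : members a D, v ∈ (B : AddSubgroup V) ∨ ∀ x ∈ (B : AddSubgroup V), ω x v = 0 := by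
      intro B
      obtain ⟨u', hu'B, hu'l, hu'v⟩ : ∃ u', u' ∈ (B : AddSubgroup V) ∧ u' ∉ lineGrp a ∧ ω u' v = 0 := by
        let φ : (B : AddSubgroup V) →+ F :=
          AddMonoidHom.mk' (fun x => ω (x : V) v) fun x y => sympForm_add_left _ _ v
        by_contra hc
        push Not at hc
        have hker : Nat.card φ.ker ≤ q := by
          rw [← card_lineGrp (a := a) ha]
          refine Nat.card_le_card_of_injective (fun x : φ.ker => (⟨((x : (B : AddSubgroup V)) : V), ?_⟩ :
            lineGrp a)) fun x y h => Subtype.ext (Subtype.ext (congrArg (fun t : lineGrp a => (t : V)) h))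
          by_contra hx
          exact hc _ (x : (B : AddSubgroup V)).2 hx x.2
        have h1 := φ.ker.card_mul_index
        rw [AddSubgroup.index_ker, card_member B.2] at h1
        have h2 : Nat.card φ.range ≤ q := Nat.card_le_card_of_injective _ Subtype.val_injective
        have := Nat.mul_le_mul hker h2
        omega
      refine or_iff_not_imp_left.2 fun hvB x hx => ?_
      by_contra hxv
      refine hvB ?_
      have := translate_fixed (u := u') (p := p) hva hu'v (by
        rwa [mult_const ha ((member_bounds hl1 hl2 B.2).2 hu'B) hu hu'l hul]) B.2 hu'B x hx hxv 1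
      rwa [one_smul] at this
    -- the vectors not orthogonal to v lie in the translates through v
    have hμv : mult a D v = μ := mult_const ha hva hu hvD hul
    let R := {x : V // x ∈ perpGrp a ∧ ω x v ≠ 0}
    have hsub : Nat.card R ≤ Nat.card (Σ B : {B : members a D // v ∈ (B : AddSubgroup V)},
        {x : V // x ∈ (B.1 : AddSubgroup V) ∧ x ∉ lineGrp a}) := by
      have hex : ∀ x : R, ∃ B : {B : members a D // v ∈ (B : AddSubgroup V)},
          (x : V) ∈ (B.1 : AddSubgroup V) ∧ (x : V) ∉ lineGrp a := by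
        intro x
        have hxl : (x : V) ∉ lineGrp a := by
          rintro ⟨κ, hκ⟩
          refine x.2.2 ?_
          rw [← hκ]
          show ω (κ • a) v = 0
          rw [sympForm_smul_left, form_comm.1 (show ω v a = 0 from hva), mul_zero]
        obtain ⟨h, hh, hhu⟩ := exists_sp_map_indep a u a (x : V)
          (indep_of_forall_ne ha fun r h => hul ⟨r, h.symm⟩)
          (indep_of_forall_ne ha fun r h => hxl ⟨r, h.symm⟩)
          (by rw [form_comm.1 (show ω u a = 0 from hu), form_comm.1 (show ω (x : V) a = 0 from x.2.1)])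
        let B : members a D := ⟨h • D, h, hh, rfl⟩
        have hxB : (x : V) ∈ (B : AddSubgroup V) := by
          rw [← hhu]; exact AddSubgroup.smul_mem_pointwise_smul u h D huD
        exact ⟨⟨B, (hmem B).resolve_right fun h' => x.2.2 (h' _ hxB)⟩, hxB, hxl⟩
      choose f hf using hex
      exact Nat.card_le_card_of_injective (fun x => ⟨f x, (x : V), hf x⟩) fun x y h =>
        Subtype.ext (congrArg (fun t => (t.2 : V)) h)
    have hR : Nat.card R + Q = q * Q := by
      let φ : perpGrp a →+ F :=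
        AddMonoidHom.mk' (fun x => ω (x : V) v) fun x y => sympForm_add_left _ _ v
      have hsurj : φ.range = ⊤ := by
        rw [eq_top_iff]; intro t _
        obtain ⟨x, hx1, hx2⟩ := exists_values (fun r h => hvD ⟨r, h.symm⟩) ha (0 : F) t
        exact ⟨⟨x, hx1⟩, hx2⟩
      have h1 := φ.ker.card_mul_index
      rw [AddSubgroup.index_ker, hsurj, AddSubgroup.card_top, hperp, mul_comm q Q] at h1
      rw [← hperp, ← Nat.eq_of_mul_eq_mul_right (show 0 < q by omega) h1]
      have := Fintype.ofFinite (perpGrp a)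
      have hR' : Nat.card R = Nat.card {x : perpGrp a // φ x ≠ 0} :=
        Nat.card_congr
          { toFun := fun x => ⟨⟨x.1, x.2.1⟩, x.2.2⟩
            invFun := fun x => ⟨x.1.1, x.1.2, x.2⟩
            left_inv := fun _ => rfl
            right_inv := fun _ => rfl }
      have hK : Nat.card φ.ker = Nat.card {x : perpGrp a // φ x = 0} := Nat.card_congr (Equiv.refl _)
      rw [hR', hK, Nat.card_eq_fintype_card, Nat.card_eq_fintype_card, Nat.card_eq_fintype_card,
        Fintype.card_subtype_compl]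
      have := Fintype.card_subtype_le fun x : perpGrp a => φ x = 0
      omega
    have := Fintype.ofFinite {B : members a D // v ∈ (B : AddSubgroup V)}
    have hcell : ∀ B : {B : members a D // v ∈ (B : AddSubgroup V)},
        Nat.card {x : V // x ∈ (B.1 : AddSubgroup V) ∧ x ∉ lineGrp a} ≤ e + 1 := by
      intro B
      have h1 := Nat.card_le_card_of_injective
        (Sum.elim (fun x : {x : V // x ∈ (B.1 : AddSubgroup V) ∧ x ∉ lineGrp a} =>
          (⟨x.1, x.2.1⟩ : (B.1 : AddSubgroup V)))
          (fun y : lineGrp a => ⟨y.1, (member_bounds hl1 hl2 B.1.2).1 y.2⟩))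
        (by
          rintro (x | x) (y | y) h <;> simp only [Sum.elim_inl, Sum.elim_inr, Subtype.mk.injEq] at h
          · exact congrArg Sum.inl (Subtype.ext h)
          · exact absurd (h ▸ y.2) x.2.2
          · exact absurd (h ▸ x.2) y.2.2
          · exact congrArg Sum.inr (Subtype.ext h))
      rw [Nat.card_sum, card_lineGrp ha, card_member B.1.2, he] at h1
      omega
    rw [Nat.card_sigma] at hsub
    have hcnt : Nat.card R ≤ μ * (e + 1) := by
      refine hsub.trans (le_trans (Finset.sum_le_sum fun B _ => hcell B) ?_)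
      rw [Finset.sum_const, Finset.card_univ, smul_eq_mul, ← Nat.card_eq_fintype_card,
        show Nat.card {B : members a D // v ∈ (B : AddSubgroup V)} = μ from hμv]
    have hqp : p ≤ q := by rw [hk]; exact Nat.le_self_pow (fun e => by rw [hk, e] at hq3; simp at hq3) p
    have hp1 := hpp.two_le
    obtain ⟨p₁, rfl⟩ : ∃ p₁, p = p₁ + 2 := ⟨p - 2, by omega⟩
    have h4 := Nat.mul_le_mul_right (e + 1) (show μ ≤ p₁ + 1 by omega)
    have h5 := Nat.mul_le_mul_left (p₁ + 1) hDlt
    rw [he] at h5
    nlinarith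
  have hDeq : Nat.card D = q * q := by
    by_cases h2 : (2 : F) = 0
    · by_contra hne
      have hμ1 : μ = 1 := by have := hnotbig.1 h2; omega
      have h2D : 2 * Nat.card D ≤ q * q := by
        have hp' := hp2.1 h2
        subst hp'
        have hlt : Nat.card D < q * q := lt_of_le_of_ne hDle hne
        rw [hi, hk, ← pow_add] at hlt ⊢
        rw [← pow_succ']
        exact Nat.pow_le_pow_right (by norm_num) ((Nat.pow_lt_pow_iff_right (by norm_num)).1 hlt)
      have hb := (hfam.2 h2).trans hkind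
      rw [he] at hb h2D
      rw [hμ1, one_mul] at hinc
      rw [hq₁, Nat.add_sub_cancel] at hsmall
      rw [hq₁] at hE h2D hb hq3 hQ2
      have h6 := Nat.mul_le_mul_left q₁ hb
      have h7 := Nat.mul_le_mul_left β h2D
      nlinarith
    · refine le_antisymm hDle ?_
      by_contra hlt
      rw [not_le] at hlt
      have h5 : Nat.card A * Nat.card D ≤ Nat.card D * Nat.card D :=
        Nat.mul_le_mul_right _ (card_az_le_dual h2 (S.moved a ha z))
      rw [hAD] at h5
      have h6 := Nat.mul_lt_mul_of_lt_of_lt hlt hlt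
      have h7 := Nat.mul_le_mul_left (q * q) hQ2
      omega
  have heq : q + e + 1 = q * q := by rw [← he, hDeq]
  have hμ1 : μ = 1 := by
    by_cases h2 : (2 : F) = 0
    · have := hnotbig.1 h2; omega
    by_contra hne
    have hμ2 : μ = 2 := by have := hnotbig.2; omega
    rw [hμ2] at hinc
    have hf := card_family ha (fun _ : Unit => z) (fun _ => rfl) (fun _ => rfl) (fun _ _ _ => rfl) g hg hgJ
    rw [Nat.card_unique, one_mul, ← hD, hDeq] at hf
    change _ * β * _ ≤ _ at hf
    have hb := hf.trans (Nat.mul_le_mul_right _ hkind)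
    rw [hq₁, Nat.add_sub_cancel] at hsmall
    rcases eq_or_ne (cz a z) ⊥ with hC | hC
    · rw [hC, AddSubgroup.card_bot, mul_one] at hb
      have h6 : β * (q * q) ≤ Nat.card Ω :=
        le_trans (by rw [mul_assoc]; exact Nat.le_mul_of_pos_left _ (one_le_card_scalOrb _)) hb
      have h8 := Nat.mul_le_mul_left q₁ h6
      rw [hq₁] at heq hE h8 hQ2 hq3
      nlinarith
    · obtain ⟨w, -⟩ := scal_weight (S.moved a ha z) hC
      have h6 : (q + 2) * β * (q * q) ≤ 2 * q * Nat.card Ω := by
        refine Nat.le_of_mul_le_mul_right (c := Nat.card (cz a z)) ?_ Nat.card_pos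
        calc (q + 2) * β * (q * q) * Nat.card (cz a z)
            = (q + 2) * Nat.card (cz a z) * (β * (q * q)) := by ring
          _ ≤ 2 * Nat.card (scalOrb (cz a z)) * q * (β * (q * q)) := Nat.mul_le_mul_right _ w
          _ = 2 * q * (Nat.card (scalOrb (cz a z)) * β * (q * q)) := by ring
          _ ≤ 2 * q * (Nat.card Ω * Nat.card (cz a z)) := Nat.mul_le_mul_left _ hb
          _ = _ := by ring
      rw [hq₁] at heq hE hQ2 hq3 h6
      have hE1 : E + 1 + (q₁ + 1) = (q₁ + 1) * Q := by linarith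
      have he1 : e + 1 + (q₁ + 1) = (q₁ + 1) * (q₁ + 1) := by linarith
      have hb1 : β * q₁ + 2 = 2 * Q := by
        refine Nat.eq_of_mul_eq_mul_left (show 0 < q₁ + 1 by omega) ?_
        have h9 : β * (e + 1) + 2 * (q₁ + 1) = 2 * ((q₁ + 1) * Q) := by rw [hinc, ← hE1]; ring
        have h10 : e + 1 = (q₁ + 1) * q₁ := by linarith [mul_add (q₁ + 1) q₁ 1]
        rw [h10] at h9
        linarith [mul_comm β q₁]
      have h8 := Nat.mul_le_mul_left q₁ h6
      have h11 : q₁ * ((q₁ + 1 + 2) * β * ((q₁ + 1) * (q₁ + 1))) + 2 * ((q₁ + 3) * ((q₁ + 1) * (q₁ + 1)))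
          = 2 * Q * ((q₁ + 3) * ((q₁ + 1) * (q₁ + 1))) := by rw [← hb1]; ring
      have h12 : 2 * (q₁ + 1) * (q₁ * Nat.card Ω + 1) < 2 * (q₁ + 1) * ((q₁ + 1) * (q₁ + 1) * Q) :=
        Nat.mul_lt_mul_of_pos_left hsmall (by omega)
      have h13 : (q₁ + 3) * (q₁ + 1) < 2 * (q₁ + 1) * Q := by
        calc (q₁ + 3) * (q₁ + 1) < (2 * (q₁ + 1) * (q₁ + 1)) * (q₁ + 1) :=
              Nat.mul_lt_mul_of_pos_right (by nlinarith only [hq3]) (by omega)
          _ = 2 * (q₁ + 1) * ((q₁ + 1) * (q₁ + 1)) := by ring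
          _ ≤ _ := Nat.mul_le_mul_left _ hQ2
      have h14 := Nat.mul_lt_mul_of_pos_left h13 (show 0 < 2 * (q₁ + 1) by omega)
      linarith [h8, h11, h12, h14]
  -- the member is an isotropic line
  have hDperp : ∀ x ∈ D, ω x u = 0 := by
    intro x hx
    by_contra hxu
    have hDset : D ≤ ((lineGrp a) ⊔ (lineGrp u)) := by
      refine le_of_eq (AddSubgroup.eq_of_le_of_card_ge (sup_le hl1 ?_) ?_).symm
      · rintro _ ⟨κ, rfl⟩
        exact translate_fixed (u := u) (p := p) (show ω u a = 0 from hu) (sympForm_self u) hμp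
          ⟨1, one_smul _ a, one_smul _ D⟩ huD x hx hxu κ
      · rw [hDeq]
        refine le_trans (le_of_eq (Nat.card_prod F F).symm) (Nat.card_le_card_of_injective
          (fun r : F × F => (⟨r.1 • a + r.2 • u, AddSubgroup.add_mem_sup ⟨r.1, rfl⟩ ⟨r.2, rfl⟩⟩ :
            (lineGrp a ⊔ lineGrp u : AddSubgroup V))) fun r s h => ?_)
        obtain ⟨h1, h2⟩ := (indep_of_forall_ne ha fun r h => hul ⟨r, h.symm⟩).eq_of_pair
          (congrArg Subtype.val h)
        exact Prod.ext h1 h2
    obtain ⟨y, ⟨κ, rfl⟩, y', ⟨r, rfl⟩, rfl⟩ := AddSubgroup.mem_sup.1 (hDset hx)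
    refine hxu ?_
    show ω (κ • a + r • u) u = 0
    rw [sympForm_add_left, sympForm_smul_left, sympForm_smul_left, sympForm_self,
      form_comm.1 (show ω u a = 0 from hu)]
    ring
  have hspan : ∀ x ∈ D, ∃ κ r : F, x = κ • a + r • u := by
    intro x hx
    by_contra hc
    push Not at hc
    obtain ⟨w, hwa, hwu, hwx⟩ := exists_perp_two hc (1 : F)
    have hwx' : ω x w ≠ 0 := fun h => by rw [form_comm.1 h] at hwx; exact zero_ne_one hwx
    have hwD : w ∈ D := by
      have := translate_fixed (u := u) (p := p) hwa (form_comm.1 hwu) hμp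
        ⟨1, one_smul _ a, one_smul _ D⟩ huD x hx hwx' 1
      rwa [one_smul] at this
    exact hwx' (by
      have h1 := hDperp w hwD
      have h2 := hDperp x hx
      -- the translate through `w`
      by_contra h3
      have hwl : w ∉ lineGrp a := by
        rintro ⟨κ, hκ⟩
        apply h3
        rw [← hκ]
        show ω x (κ • a) = 0
        rw [sympForm_smul_right, show ω x a = 0 from hl2 hx, mul_zero]
      have hμw : mult a D w < p := by rwa [mult_const ha (hl2 hwD) hu hwl hul]
      have hset : D ≤ lineGrp a ⊔ lineGrp w := by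
        refine le_of_eq (AddSubgroup.eq_of_le_of_card_ge (sup_le hl1 ?_) ?_).symm
        · rintro _ ⟨κ, rfl⟩
          exact translate_fixed (u := w) (p := p) (show ω w a = 0 from hl2 hwD) (sympForm_self w) hμw
            ⟨1, one_smul _ a, one_smul _ D⟩ hwD x hx h3 κ
        · rw [hDeq]
          refine le_trans (le_of_eq (Nat.card_prod F F).symm) (Nat.card_le_card_of_injective
            (fun r : F × F => (⟨r.1 • a + r.2 • w, AddSubgroup.add_mem_sup ⟨r.1, rfl⟩ ⟨r.2, rfl⟩⟩ :
              (lineGrp a ⊔ lineGrp w : AddSubgroup V))) fun r s h => ?_)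
          obtain ⟨e1, e2⟩ := (indep_of_forall_ne ha fun r h => hwl ⟨r, h.symm⟩).eq_of_pair
            (congrArg Subtype.val h)
          exact Prod.ext e1 e2
      obtain ⟨y, ⟨κ, rfl⟩, y', ⟨r, rfl⟩, rfl⟩ := AddSubgroup.mem_sup.1 (hset hx)
      apply h3
      show ω (κ • a + r • w) w = 0
      rw [sympForm_add_left, sympForm_smul_left, sympForm_smul_left, sympForm_self,
        form_comm.1 (show ω w a = 0 from hl2 hwD)]
      ring)
  refine ⟨u, ⟨fun r h => hul ⟨r, h.symm⟩, hu, fun x => ?_⟩, ?_, hDeq⟩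
  · constructor
    · intro hx
      refine ⟨hx.1, eq_zero_of_chi fun s => ?_⟩
      have hsu : s • u ∈ D := by
        have hle : D ≤ lineGrp a ⊔ lineGrp u := fun y hy => by
          obtain ⟨κ, r, rfl⟩ := hspan y hy
          exact AddSubgroup.add_mem_sup ⟨κ, rfl⟩ ⟨r, rfl⟩
        have hge : Nat.card (lineGrp a ⊔ lineGrp u : AddSubgroup V) ≤ Nat.card D := by
          rw [hDeq]
          refine le_trans (Nat.card_le_card_of_surjective (fun r : F × F =>
            (⟨r.1 • a + r.2 • u, AddSubgroup.add_mem_sup ⟨r.1, rfl⟩ ⟨r.2, rfl⟩⟩ :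
              (lineGrp a ⊔ lineGrp u : AddSubgroup V))) fun y => ?_) (le_of_eq (Nat.card_prod F F))
          obtain ⟨_, ⟨κ, rfl⟩, _, ⟨r, rfl⟩, h⟩ := AddSubgroup.mem_sup.1 y.2
          exact ⟨(κ, r), Subtype.ext h⟩
        rw [AddSubgroup.eq_of_le_of_card_ge hle hge]
        exact AddSubgroup.mem_sup_right ⟨s, rfl⟩
      have := chi_eq_one_comm.1 (mem_dual.1 hsu x hx)
      rwa [sympForm_smul_right, mul_comm] at this
    · rintro ⟨hxa, hxu⟩
      rw [← hA, ← dual_dual A, ← hD, mem_dual]
      intro y hy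
      obtain ⟨κ, r, rfl⟩ := hspan y hy
      rw [sympForm_add_right, sympForm_smul_right, sympForm_smul_right, hxa, hxu]
      simp
  · rw [hμ1, one_mul] at hinc
    show β * (q - 1) + 1 = Q
    rw [hq₁, Nat.add_sub_cancel]
    rw [hq₁] at heq hE
    refine Nat.eq_of_mul_eq_mul_left (show 0 < q₁ + 1 by omega) ?_
    have h10 : e + 1 = (q₁ + 1) * q₁ := by linarith [mul_add (q₁ + 1) q₁ 1]
    rw [h10] at hinc
    linarith [mul_comm β q₁]

end CfsgLib.MinIndexSympGen
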