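import Cfsg.Agent.Lib.MinIndex.SympGen.Basic

/-!
Counting the orbits of a root group: the images of a point under scalings and under the stabiliser of
the point of the root group.
-/

set_option autoImplicit false
set_option linter.unusedSectionVars false

namespace CfsgLib.MinIndexSympGen

open CfsgLib.ClassicalLinear CfsgLib.MinIndexOrth MulAction Module
open scoped Pointwise

universe u

variable {F : Type u} [Field F] [Finite F] {m : ℕ}

local notation "V" => (Fin m ⊕ Fin m → F)
local notation "Sp" => Matrix.symplecticGroup (Fin m) F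
local notation "ω" => Cfsg.sympForm m F

/-- The multiples of a subgroup by squares. -/
def scalOrb (C : AddSubgroup F) : Set (AddSubgroup F) :=
  (fun r : F => C.map (AddMonoidHom.mulLeft (r * r))) '' {r | r ≠ 0}

lemma one_le_card_scalOrb (C : AddSubgroup F) : 1 ≤ Nat.card (scalOrb C) := by
  have : Nonempty (scalOrb C) := ⟨⟨_, 1, one_ne_zero, rfl⟩⟩
  exact Nat.card_pos

lemma card_map_mulLeft (C : AddSubgroup F) {r : F} (hr : r ≠ 0) :
    Nat.card (C.map (AddMonoidHom.mulLeft r)) = Nat.card C :=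
  (Nat.card_congr (C.equivMapOfInjective _ (mul_right_injective₀ hr)).toEquiv).symm

lemma card_mul_two_le {C : AddSubgroup F} (hC : C ≠ ⊤) : Nat.card C * 2 ≤ Nat.card F := by
  have h1 := C.index_ne_zero_of_finite
  have h2 : C.index ≠ 1 := fun h => hC (AddSubgroup.index_eq_one.1 h)
  rw [← C.card_mul_index]
  exact Nat.mul_le_mul_left _ (by omega)

/-- The squares move a proper non-trivial subgroup enough. -/
theorem scal_weight {C : AddSubgroup F} (hC : C ≠ ⊤) (hC0 : C ≠ ⊥) :
    (Nat.card F + 2) * Nat.card C ≤ 2 * Nat.card (scalOrb C) * Nat.card F ∧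
      ((2 : F) = 0 → (Nat.card F + 2) * Nat.card C ≤ Nat.card (scalOrb C) * Nat.card F) := by
  classical
  let L : AddSubgroup F :=
    { carrier := {x | ∀ k ∈ C, x * k ∈ C}
      zero_mem' := fun k _ => by rw [zero_mul]; exact C.zero_mem
      add_mem' := fun {x y} hx hy k hk => by rw [add_mul]; exact C.add_mem (hx k hk) (hy k hk)
      neg_mem' := fun {x} hx k hk => by rw [neg_mul]; exact C.neg_mem (hx k hk) }
  obtain ⟨⟨k₀, hk₀⟩, hk₀0⟩ := C.ne_bot_iff_exists_ne_zero.1 hC0
  have hk₀' : k₀ ≠ 0 := fun h => hk₀0 (Subtype.ext h)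
  obtain ⟨y, -, hyC⟩ := SetLike.exists_of_lt (lt_top_iff_ne_top.2 hC)
  have hcancel : ∀ x ∈ L, x ≠ 0 → ∀ z, x * z ∈ C → z ∈ C := by
    intro x hx hx0 z hz
    obtain ⟨w, hw⟩ := Finite.injective_iff_surjective.1 (show Function.Injective
      (fun k : C => (⟨x * k, hx k k.2⟩ : C)) from fun u v h => Subtype.ext
        (mul_left_cancel₀ hx0 (congrArg Subtype.val h))) ⟨x * z, hz⟩
    exact mul_left_cancel₀ hx0 (congrArg Subtype.val hw) ▸ w.2
  have hl1 : Nat.card L ≤ Nat.card C :=
    Nat.card_le_card_of_injective (fun x : L => (⟨(x : F) * k₀, x.2 k₀ hk₀⟩ : C))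
      fun u v h => Subtype.ext (mul_right_cancel₀ hk₀' (congrArg Subtype.val h))
  have hl2 : Nat.card L ≤ C.index := by
    rw [AddSubgroup.index_eq_card]
    let φ : L →+ F ⧸ C := (QuotientAddGroup.mk' C).comp
      (AddMonoidHom.mk' (fun x : L => (x : F) * y) fun u v => add_mul _ _ _)
    refine Nat.card_le_card_of_injective φ ((injective_iff_map_eq_zero φ).2 fun x hx => ?_)
    by_contra hx0
    exact hyC (hcancel x x.2 (by simpa using hx0) y
      ((QuotientAddGroup.eq_zero_iff (N := C) ((x : F) * y)).1 hx))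
  have hq := C.card_mul_index
  have hL2 : 2 ≤ Nat.card L :=
    Finite.one_lt_card_iff_nontrivial.2 ⟨0, ⟨1, fun k hk => by rwa [one_mul]⟩,
      fun h => zero_ne_one (congrArg Subtype.val h)⟩
  have := Fintype.ofFinite F
  have hF : Nat.card {x : F // x ≠ 0} = Nat.card F - 1 := by
    simp [Nat.card_eq_fintype_card]
  have hL : Nat.card {x : L // x ≠ 0} = Nat.card L - 1 := by
    have := Fintype.ofFinite L
    simp [Nat.card_eq_fintype_card]
  choose r hr0 hr using fun o : scalOrb C => o.2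
  let mkO : ∀ x : F, x ≠ 0 → scalOrb C := fun x hx =>
    ⟨C.map (AddMonoidHom.mulLeft (x * x)), ⟨x, hx, rfl⟩⟩
  have hmem : ∀ (x : F) (hx : x ≠ 0), x * x / (r (mkO x hx) * r (mkO x hx)) ∈ L := by
    intro x hx k hk
    set s := r (mkO x hx) with hs
    have h1 : x * x * k ∈ C.map (AddMonoidHom.mulLeft (s * s)) := by
      rw [show C.map (AddMonoidHom.mulLeft (s * s)) = C.map (AddMonoidHom.mulLeft (x * x)) from hr _]
      exact ⟨k, hk, rfl⟩
    obtain ⟨k', hk', he⟩ := h1
    have hs0 : s * s ≠ 0 := mul_ne_zero (hr0 _) (hr0 _)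
    have he' : s * s * k' = x * x * k := he
    rw [div_mul_eq_mul_div, ← he', mul_div_cancel_left₀ _ hs0]
    exact hk'
  let g : {x : F // x ≠ 0} → scalOrb C × {x : L // x ≠ 0} := fun x =>
    (mkO x.1 x.2, ⟨⟨_, hmem x.1 x.2⟩, fun h => by
      have := congrArg Subtype.val h
      exact div_ne_zero (mul_ne_zero x.2 x.2) (mul_ne_zero (hr0 _) (hr0 _)) this⟩)
  have hfib : ∀ x y, g x = g y → (y : F) = x ∨ (y : F) = -x := by
    intro x y h
    have h1 := congrArg (fun p => ((p.2 : L) : F)) h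
    have h2 := congrArg Prod.fst h
    simp only [g] at h1 h2
    rw [h2, div_left_inj' (mul_ne_zero (hr0 _) (hr0 _))] at h1
    exact mul_self_eq_mul_self_iff.1 h1.symm
  have key : ∀ s : ℕ, (∀ x : {x : F // x ≠ 0}, (Finset.univ.filter fun y => g y = g x).card ≤ s) →
      (Nat.card F + 2) * Nat.card C ≤ s * Nat.card (scalOrb C) * Nat.card F := by
    intro s hs
    have h1 : Nat.card F - 1 ≤ s * (Nat.card (scalOrb C) * (Nat.card L - 1)) := by
      rw [← hF, ← hL, ← Nat.card_prod]
      have := Fintype.ofFinite (scalOrb C × {x : L // x ≠ 0})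
      rw [Nat.card_eq_fintype_card, Nat.card_eq_fintype_card, ← Finset.card_univ,
        ← Finset.card_univ (α := scalOrb C × {x : L // x ≠ 0})]
      refine Finset.card_le_mul_card_image_of_maps_to (f := g) (fun x _ => Finset.mem_univ _) s fun b _ => ?_
      by_cases hb : ∃ x, g x = b
      · obtain ⟨x, rfl⟩ := hb
        exact hs x
      · rw [Finset.filter_eq_empty_iff.2 fun x _ h => hb ⟨x, h⟩]
        simp
    obtain ⟨l, hl⟩ : ∃ l, Nat.card L = l + 2 := ⟨Nat.card L - 2, by omega⟩
    rw [hl] at hl1 hl2 h1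
    set c := Nat.card C
    have hsq : (l + 2) * (l + 2) ≤ Nat.card F := hq ▸ Nat.mul_le_mul hl1 hl2
    have h3 : c * (l + 2) ≤ Nat.card F := hq ▸ Nat.mul_le_mul_left c hl2
    refine Nat.le_of_mul_le_mul_right (c := l + 1) ?_ (by omega)
    calc (Nat.card F + 2) * c * (l + 1) = c * ((Nat.card F + 2) * (l + 1)) := by ring
      _ ≤ c * ((l + 2) * (Nat.card F - 1)) := Nat.mul_le_mul_left _ (by
          have h4 : 1 ≤ Nat.card F := Nat.card_pos
          obtain ⟨w, hw⟩ : ∃ w, Nat.card F = w + 1 := ⟨Nat.card F - 1, by omega⟩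
          rw [hw] at hsq ⊢
          rw [Nat.add_sub_cancel]
          nlinarith)
      _ = c * (l + 2) * (Nat.card F - 1) := by ring
      _ ≤ Nat.card F * (s * (Nat.card (scalOrb C) * (l + 2 - 1))) := Nat.mul_le_mul h3 h1
      _ = s * Nat.card (scalOrb C) * Nat.card F * (l + 1) := by
          rw [show l + 2 - 1 = l + 1 by omega]; ring
  refine ⟨key 2 fun x => ?_, fun h2 => (key 1 fun x => ?_).trans_eq (by rw [one_mul])⟩
  · have hx' : -(x : F) ≠ 0 := neg_ne_zero.2 x.2
    refine le_trans (Finset.card_le_card (t := {x, ⟨-(x : F), hx'⟩}) fun y hy => ?_) Finset.card_le_two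
    simp only [Finset.mem_filter] at hy
    rcases hfib x y hy.2.symm with h | h
    · simp [Subtype.ext h]
    · simp [show y = ⟨-(x : F), hx'⟩ from Subtype.ext h]
  · refine Finset.card_le_one.2 fun y hy y' hy' => ?_
    simp only [Finset.mem_filter] at hy hy'
    have hneg : ∀ t : F, -t = t := fun t => by linear_combination (-t) * h2
    refine Subtype.ext ?_
    rcases hfib y y' (hy.2.trans hy'.2.symm) with h | h
    · exact h.symm
    · rw [h, hneg]

/-- A subgroup weighs at least as much as its index. -/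
lemma card_le_weight {C : AddSubgroup F} (hC : C ≠ ⊤) :
    Nat.card F * Nat.card C ≤ 2 * Nat.card (scalOrb C) * Nat.card F ∧
      ((2 : F) = 0 → Nat.card F * Nat.card C ≤ Nat.card (scalOrb C) * Nat.card F) := by
  by_cases hC0 : C = ⊥
  · rw [hC0, AddSubgroup.card_bot, mul_one]
    have h := Nat.mul_le_mul_right (Nat.card F) (one_le_card_scalOrb (⊥ : AddSubgroup F))
    exact ⟨by rw [mul_assoc]; omega, fun _ => by omega⟩
  · obtain ⟨h1, h2⟩ := scal_weight hC hC0
    exact ⟨le_trans (Nat.mul_le_mul_right _ (by omega)) h1,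
      fun h => le_trans (Nat.mul_le_mul_right _ (by omega)) (h2 h)⟩

variable {Ω : Type*} [MulAction (Matrix.symplecticGroup (Fin m) F) Ω]

/-- Elements fixing a point's line preserve the orbits of its root group. -/
lemma orbit_transfer {a : V} {α : F} (hα : α ≠ 0) {g : Sp} (hg : g • a = α • a) {w w' : Ω}
    (h : g • w' ∈ orbit (uGrp a) (g • w)) : w' ∈ orbit (uGrp a) w := by
  obtain ⟨⟨_, v, hv, c, rfl⟩, he⟩ := h
  have ha : g⁻¹ • a = α⁻¹ • a := by
    rw [inv_smul_eq_iff, smul_comm, hg, smul_smul, inv_mul_cancel₀ hα, one_smul]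
  have hv' : ω (g⁻¹ • v) a = 0 := by
    have := sympForm_smul g⁻¹ v a
    rw [hv, ha, sympForm_smul_right, mul_eq_zero] at this
    exact this.resolve_left (inv_ne_zero hα)
  refine ⟨⟨el a (α⁻¹ • (g⁻¹ • v)) (α⁻¹ * α⁻¹ * c), el_mem_uGrp (by
    rw [sympForm_smul_left, hv', mul_zero]) _⟩, ?_⟩
  show el a (α⁻¹ • (g⁻¹ • v)) (α⁻¹ * α⁻¹ * c) • w = w'
  have he' : el a v c • g • w = g • w' := he
  rw [← el_smul_fst hv', ← ha, ← el_conj, inv_inv, mul_smul, mul_smul, he', inv_smul_smul]

/-- The points whose projection has the same size as that of `z`. -/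
def kind (a : V) (z : Ω) : Set Ω := {w | Nat.card (az a w) = Nat.card (az a z)}

lemma card_az_conj {a : V} {r : F} (hr : r ≠ 0) {s : Sp} (hs : s • a = r • a) (z : Ω) :
    Nat.card (az a (s • z)) = Nat.card (az a z) := by
  have key : ∀ x : V, r • (s • x) ∈ az a (s • z) ↔ x ∈ az a z := fun x => by
    rw [← mem_az_smul_vec hr, ← hs, mem_az_conj]
  refine (Nat.card_eq_of_bijective (fun x : az a z => (⟨r • (s • (x : V)), (key _).2 x.2⟩ :
    az a (s • z))) ⟨fun x y h => Subtype.ext ?_, fun y => ?_⟩).symm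
  · have h' : r • s • (x : V) = r • s • (y : V) := congrArg Subtype.val h
    exact smul_left_cancel s (smul_right_injective V hr h')
  · have hy : r • s • (s⁻¹ • r⁻¹ • (y : V)) = y := by rw [smul_inv_smul, smul_inv_smul₀ hr]
    exact ⟨⟨s⁻¹ • r⁻¹ • (y : V), (key _).1 (by rw [hy]; exact y.2)⟩, Subtype.ext hy⟩

variable [Finite Ω]

/-- The points met by translates of some points of the same invariants. -/
theorem card_family {a : V} (ha : a ≠ 0) {z : Ω} {ι : Type*} [Finite ι] (zk : ι → Ω)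
    (hA : ∀ k, az a (zk k) = az a z) (hC : ∀ k, cz a (zk k) = cz a z)
    (hK : ∀ k k', zk k' ∈ orbit (uGrp a) (zk k) → k = k') {J : Type*} [Finite J] (g : J → Sp)
    (hg : ∀ j, g j • a = a) (hJ : Function.Injective fun j => g j • az a z) :
    Nat.card ι * Nat.card (scalOrb (cz a z)) * Nat.card J * Nat.card (dual (az a z))
      ≤ Nat.card (kind a z) * Nat.card (cz a z) := by
  classical
  choose r hr0 hr using fun o : scalOrb (cz a z) => o.2
  choose s hs using fun o : scalOrb (cz a z) =>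
    exists_sp_smul_eq ha (smul_ne_zero (hr0 o) ha)
  let pt : ι × scalOrb (cz a z) × J → Ω := fun p => s p.2.1 • g p.2.2 • zk p.1
  have hgs : ∀ p : ι × scalOrb (cz a z) × J, (s p.2.1 * g p.2.2) • a = r p.2.1 • a := fun p => by
    rw [mul_smul, hg, hs]
  have hcz : ∀ p, cz a (pt p) = (cz a z).map (AddMonoidHom.mulLeft (r p.2.1 * r p.2.1)) := fun p => by
    rw [cz_smul_vec (hr0 p.2.1)]
    have h := cz_conj (a := a) (s p.2.1 * g p.2.2) (zk p.1)
    rw [hgs, mul_smul, hC] at h
    exact congrArg _ h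
  have haz : ∀ p (x : V), r p.2.1 • (s p.2.1 • x) ∈ az a (pt p) ↔ x ∈ g p.2.2 • az a z := fun p x => by
    rw [← mem_az_smul_vec (hr0 p.2.1), ← hs, mem_az_conj,
      mem_smul_iff, ← hA p.1]
    have h := mem_az_conj (a := a) (x := (g p.2.2)⁻¹ • x) (g p.2.2) (zk p.1)
    rw [hg, smul_inv_smul] at h
    exact h
  have horb : ∀ p, Nat.card (orbit (uGrp a) (pt p)) * Nat.card (cz a z) = Nat.card (dual (az a z)) := by
    intro p
    have h1 := card_orbit_uGrp ha (pt p)
    have h2 : Nat.card (cz a (pt p)) = Nat.card (cz a z) := by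
      rw [hcz, card_map_mulLeft _ (mul_ne_zero (hr0 _) (hr0 _))]
    have h3 : Nat.card (az a (pt p)) = Nat.card (az a z) := by
      rw [show pt p = (s p.2.1 * g p.2.2) • zk p.1 from (mul_smul _ _ _).symm,
        card_az_conj (hr0 _) (hgs p), hA]
    have h4 := card_mul_dual (az a (pt p))
    rw [h3, ← card_mul_dual (az a z)] at h4
    rw [← h2, h1]
    exact Nat.eq_of_mul_eq_mul_left Nat.card_pos h4
  have hinj : ∀ p p', pt p' ∈ orbit (uGrp a) (pt p) → p = p' := by
    rintro ⟨k, o, j⟩ ⟨k', o', j'⟩ hm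
    obtain ⟨u, hu⟩ := hm
    obtain ⟨i1, i2⟩ := invariants_uGrp (pt (k, o, j)) u
    change u • pt (k, o, j) = _ at hu
    rw [hu] at i1 i2
    rw [hcz, hcz] at i2
    have ho : o' = o := Subtype.ext ((hr o').symm.trans (i2.trans (hr o)))
    subst ho
    have hj : j' = j := hJ (AddSubgroup.ext fun x => by
      show x ∈ g j' • az a z ↔ x ∈ g j • az a z
      rw [← haz (k', o', j'), ← haz (k, o', j), i1])
    subst hj
    have hm' : pt (k', o', j') ∈ orbit (uGrp a) (pt (k, o', j')) := ⟨u, hu⟩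
    rw [show pt (k', o', j') = (s o' * g j') • zk k' from (mul_smul _ _ _).symm,
      show pt (k, o', j') = (s o' * g j') • zk k from (mul_smul _ _ _).symm] at hm'
    rw [hK k k' (orbit_transfer (hr0 o') (hgs (k, o', j')) hm')]
  have hsub : ∀ p, ∀ w ∈ orbit (uGrp a) (pt p), w ∈ kind a z := by
    rintro p _ ⟨u, rfl⟩
    show Nat.card (az a (u • pt p)) = _
    rw [(invariants_uGrp (pt p) u).1, show pt p = (s p.2.1 * g p.2.2) • zk p.1 from (mul_smul _ _ _).symm,
      card_az_conj (hr0 _) (hgs p), hA]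
  have hle : Nat.card (Σ p, orbit (uGrp a) (pt p)) ≤ Nat.card (kind a z) := by
    refine Nat.card_le_card_of_injective (fun w => ⟨(w.2 : Ω), hsub w.1 _ w.2.2⟩) fun u v h => ?_
    obtain ⟨p, y, hy⟩ := u
    obtain ⟨p', y', hy'⟩ := v
    obtain rfl : y = y' := congrArg Subtype.val h
    have hpp : p = p' := hinj p p' (by
      rw [← orbit_eq_iff.2 hy, orbit_eq_iff.2 hy']; exact mem_orbit_self _)
    subst hpp
    rfl
  refine le_trans (le_of_eq ?_) (Nat.mul_le_mul_right _ hle)
  have := Fintype.ofFinite (ι × scalOrb (cz a z) × J)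
  rw [Nat.card_sigma, Finset.sum_mul, Finset.sum_congr rfl fun p _ => horb p, Finset.sum_const,
    Finset.card_univ, smul_eq_mul, ← Nat.card_eq_fintype_card, Nat.card_prod, Nat.card_prod]
  ring

end CfsgLib.MinIndexSympGen
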