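import Cfsg.Agent.Lib.MinIndex.SympGen.Unique

/-!
In characteristic two a small action has a transvection group fixing a point.
-/

set_option autoImplicit false
set_option linter.unusedSectionVars false

namespace CfsgLib.MinIndexSympGen

open CfsgLib.ClassicalLinear CfsgLib.MinIndexOrth MulAction Module
open scoped Pointwise

universe u

variable {F : Type u} [Field F] [Finite F] {m : ℕ}

local notation "V" => (Fin m ⊕ Fin m → F)
local notation "Sp" => Matrix.symplecticGroup (Fin m) F
local notation "ω" => Cfsg.sympForm m F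
local notation "q" => Nat.card F

variable {Ω : Type*} [MulAction (Matrix.symplecticGroup (Fin m) F) Ω] [Finite Ω]

lemma neg_two_eq (h2 : (2 : F) = 0) (t : F) : -t = t := by linear_combination (-t) * h2

/-- In characteristic two the root group is abelian. -/
lemma el_comm_two (h2 : (2 : F) = 0) {a x y : V} (hx : ω x a = 0) (hy : ω y a = 0) (c d : F) :
    el a x c * el a y d = el a y d * el a x c := by
  rw [el_mul hx hy, el_mul hy hx, add_comm x y, sympForm_skew y x]
  congr 1; linear_combination (-(ω x y)) * h2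

/-- A diagonal pair with its off-diagonal part is a transvection. -/
lemma spT_diag (h2 : (2 : F) = 0) {a v : V} (hv : ω v a = 0) {s c : F} (hs : s * s = c) :
    spT (s • a + v) 1 = el a (s • v) 0 * (spT a c * spT v 1) := by
  refine sp_ext fun x => ?_
  have hav : ω a v = 0 := form_comm.1 hv
  rw [mul_smul, mul_smul, el_apply (by rw [sympForm_smul_left, hv, mul_zero])]
  simp only [spT_smul, sympForm_add_left, sympForm_add_right, sympForm_smul_left, sympForm_smul_right,
    sympForm_self, hv, hav]
  rw [← hs]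
  module

variable (S : Setup F m Ω)
include S

/-- A full projection at a point excludes the others. -/
lemma T1_all (h2 : (2 : F) = 0) {a : V} (ha : a ≠ 0) {z z' : Ω} (h : IsT1 a z) : IsT1 a z' := by
  by_contra h'
  obtain ⟨Q, hQ, hQ', hQ2⟩ := S.qQ
  have hq := S.three_le
  have hsmall := S.small
  rw [hQ] at hsmall
  obtain ⟨q₁, hq₁⟩ : ∃ q₁, q = q₁ + 1 := ⟨q - 1, by omega⟩
  have h1 := card_kind_T1 S h2 ha h
  have hdis : Nat.card (kind a z) + Nat.card (kind a z') ≤ Nat.card Ω := by
    rw [← Nat.card_sum]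
    refine Nat.card_le_card_of_injective (Sum.elim (fun w => w.1) fun w => w.1) ?_
    have hne : ∀ (w : kind a z) (w' : kind a z'), (w : Ω) ≠ w' := fun w w' e => by
      refine h' ((isT1_iff S ha z').2 ?_)
      have h3 : Nat.card (az a (w' : Ω)) = Nat.card (az a z') := w'.2
      have h4 : Nat.card (az a (w : Ω)) = Nat.card (az a z) := w.2
      rw [← h3, ← e, h4]
      exact (isT1_iff S ha z).1 h
    rintro (x | x) (y | y) e <;> simp only [Sum.elim_inl, Sum.elim_inr] at e
    · exact congrArg Sum.inl (Subtype.ext e)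
    · exact absurd e (hne x y)
    · exact absurd e.symm (hne y x)
    · exact congrArg Sum.inr (Subtype.ext e)
  rw [hQ'] at h1
  rw [hq₁, Nat.add_sub_cancel] at h1 hsmall
  have h5 := Nat.mul_le_mul_left q₁ hdis
  by_cases h0 : IsT0 a z'
  · have hk := (family_le ha (S.moved a ha z') (fun _ : Unit => z') (fun _ => rfl) (fun _ => rfl)
      (fun _ _ _ => rfl) (fun _ : Unit => (1 : Sp)) (fun _ => one_smul _ a) (fun _ _ _ => rfl)).2 h2
    rw [show Nat.card Unit = 1 from Nat.card_unique, one_mul, one_mul, card_dual_T0 S ha h0, hQ',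
      hq₁] at hk
    have h6 := Nat.mul_le_mul_left q₁ hk
    rw [hq₁] at hq hQ2
    nlinarith
  · obtain ⟨v, -, hβ, hD⟩ := classify S ha z' h0 h'
    obtain ⟨g, hg, hgJ⟩ := exists_translates S (a := a) z'
    have hk := (family_le ha (S.moved a ha z') (fun _ : Unit => z') (fun _ => rfl) (fun _ => rfl)
      (fun _ _ _ => rfl) g hg hgJ).2 h2
    rw [show Nat.card Unit = 1 from Nat.card_unique, one_mul, hD] at hk
    set β := Nat.card (members a (dual (az a z')))
    rw [hQ', hq₁, Nat.add_sub_cancel] at hβ
    have h6 := Nat.mul_le_mul_left q₁ hk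
    rw [hq₁] at hq hQ2 h6
    nlinarith

/-- The full projections cannot occur. -/
lemma not_T1_two (h2 : (2 : F) = 0) {a : V} (ha : a ≠ 0) (z : Ω) : ¬ IsT1 a z := by
  classical
  intro h
  have hall : ∀ (b : V), b ≠ 0 → ∀ w : Ω, IsT1 b w := by
    intro b hb w
    obtain ⟨g, hg⟩ := exists_sp_smul_eq ha hb
    have h' : IsT1 a (g⁻¹ • w) := T1_all S h2 ha h
    rw [isT1_iff S hb, ← (isT1_iff S ha (g⁻¹ • w)).1 h', ← card_az_smul g a, hg, smul_inv_smul]
  have hfull : ∀ (b : V), b ≠ 0 → ∀ (w : Ω) (x : V), ω x b = 0 → ∃ φ, el b x φ • w = w := by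
    intro b hb w x hx
    exact (show x ∈ az b w by rw [show az b w = perpGrp b from hall b hb w]; exact hx).2
  have key : ∀ (b : V), b ≠ 0 → cz b z ≠ ⊥ ∧ ∃ v : V, v ≠ 0 ∧ cz v z = ⊥ := by
    intro b hb
    -- the value of a fixed element is forced
    have G1 : ∀ (v : V), ω v b = 0 → (∀ r : F, v ≠ r • b) → ∀ l d : F, el v (l • b) d • z = z → d ≠ 0 →
        ∀ η : F, el b (η • v) (η * η / d) • z = z := by
      intro v hv hvne l d hfix hd η
      obtain ⟨x, hxb, hxv⟩ := exists_values hvne hb (0 : F) (η / d)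
      obtain ⟨φ, hφ⟩ := hfull b hb z x hxb
      have hlbv : ω (l • b) v = 0 := by rw [sympForm_smul_left, form_comm.1 hv, mul_zero]
      have hgb : el v (l • b) d • b = b := by
        rw [el_smul_perp hlbv d (form_comm.1 hv), sympForm_smul_right, sympForm_self]; simp
      have h1 := el_fix_conj hgb hφ
      rw [hfix, el_apply hlbv, hxv, sympForm_smul_right, hxb, mul_zero, zero_smul, add_zero,
        mul_div_cancel₀ _ hd, smul_smul,
        show x + (η / d * l) • b + η • v = x + η • v + (η / d * l) • b by abel,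
        el_add_fst (by rw [sympForm_add_left, hxb, sympForm_smul_left, hv]; ring), h2, zero_mul,
        add_zero] at h1
      have h3 : el b x φ • el b (x + η • v) φ • z = z := by rw [h1, hφ]
      rw [← mul_smul, el_mul hxb (by rw [sympForm_add_left, hxb, sympForm_smul_left, hv]; ring),
        sympForm_add_left, sympForm_self, sympForm_smul_left, sympForm_skew v x, hxv,
        show x + (x + η • v) = η • v by
          rw [← add_assoc, ← two_smul F x, h2, zero_smul, zero_add],
        show φ + φ + (0 + η * -(η / d)) = η * η / d by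
          linear_combination (φ - η * (η / d)) * h2] at h3
      exact h3
    obtain ⟨v, hv, hvne, l₀, d₀, hfix₀, hd₀⟩ : ∃ v, ω v b = 0 ∧ (∀ r : F, v ≠ r • b) ∧
        ∃ l d, el v (l • b) d • z = z ∧ spT v d • z ≠ z := by
      by_contra hc
      push Not at hc
      have h0 : ∀ x : V, ω x b = 0 → el b x 0 • z = z := by
        intro x hx
        by_cases hl : ∀ r : F, x ≠ r • b
        · obtain ⟨d, hd⟩ := hfull x (fun e => hl 0 (by rw [e, zero_smul])) z ((1 : F) • b)
            (by rw [one_smul, form_comm.1 hx])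
          have h1 := hc x hx hl 1 d hd
          rw [el_split (by rw [one_smul, form_comm.1 hx]), mul_smul, h1, one_smul,
            el_swap (form_comm.1 hx)] at hd
          exact hd
        · push Not at hl
          obtain ⟨r, rfl⟩ := hl
          rw [← zero_add (r • b), el_add_fst (form_zero_left b), h2, zero_mul, add_zero, el_one,
            one_smul]
      apply S.moved b hb z
      rw [eq_top_iff]
      intro t _
      obtain ⟨w, hw, hwne⟩ : ∃ w, ω w b = 0 ∧ ∀ r : F, w ≠ r • b := by
        by_contra hc2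
        push Not at hc2
        have hle : perpGrp b ≤ lineGrp b := fun x hx => by
          obtain ⟨r, hr⟩ := hc2 x hx
          exact ⟨r, hr.symm⟩
        obtain ⟨Q, -, hQ', hQ2⟩ := S.qQ
        have := AddSubgroup.card_le_of_le hle
        rw [card_perpGrp S hb, card_lineGrp hb, hQ'] at this
        have h3 := S.three_le
        have := Nat.mul_le_mul_left q hQ2
        nlinarith
      obtain ⟨x, hxb, hxw⟩ := exists_values hwne hb (0 : F) t
      have h4 : el b (w + x) (ω x w) • z = z := by
        have h5 : el b w 0 • el b x 0 • z = z := by rw [h0 x hxb, h0 w hw]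
        rwa [← mul_smul, el_mul hw hxb, add_zero, zero_add] at h5
      have := (el_fix_iff (by rw [sympForm_add_left, hw, hxb, add_zero])
        (h0 (w + x) (by rw [sympForm_add_left, hw, hxb, add_zero]))).1 h4
      rwa [sub_zero, hxw] at this
    have hv0 : v ≠ 0 := fun e => hvne 0 (by rw [e, zero_smul])
    have hd₀' : d₀ ≠ 0 := fun e => hd₀ (by rw [e, spT_zero, one_smul])
    have hP₀ := G1 v hv hvne l₀ d₀ hfix₀ hd₀'
    have huniq : ∀ l d, el v (l • b) d • z = z → d = 0 ∨ d = d₀ := fun l d h =>
      or_iff_not_imp_left.2 fun hd => pres_unique S h2 hb hv (G1 v hv hvne l d h hd) hP₀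
    refine ⟨?_, v, hv0, ?_⟩
    swap
    · rw [AddSubgroup.eq_bot_iff_forall]
      intro c hc
      rcases huniq 0 c (by rw [zero_smul, el_zero]; exact hc) with h' | h'
      · exact h'
      · exact absurd (h' ▸ hc) hd₀
    · intro hC
      have hlb : ∀ l : F, ω (l • b) v = 0 := fun l => by rw [sympForm_smul_left, form_comm.1 hv, mul_zero]
      have h00 : ∀ l : F, el v (l • b) 0 • z = z → l = 0 := by
        intro l h
        have h1 : el b (l • v) 0 • z = z := by
          rw [el_swap (hlb l), el_smul_fst hv, mul_zero] at h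
          exact h
        have := (el_fix_iff (by rw [sympForm_smul_left, hv, mul_zero]) h1).1 (hP₀ l)
        rw [hC, AddSubgroup.mem_bot, sub_zero, div_eq_zero_iff] at this
        exact mul_self_eq_zero.1 (this.resolve_right hd₀')
      -- three scalars, two of them with the same value
      obtain ⟨l₁, hl₁, hl₂⟩ : ∃ l : F, l ≠ 0 ∧ l ≠ l₀ := by
        have := Fintype.ofFinite F
        obtain ⟨c, -, hc⟩ := Finset.exists_mem_notMem_of_card_lt_card (s := ({0, l₀} : Finset F))
          (t := Finset.univ) (lt_of_le_of_lt Finset.card_le_two (by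
            rw [Finset.card_univ, ← Nat.card_eq_fintype_card]; have := S.three_le; omega))
        simp only [Finset.mem_insert, Finset.mem_singleton, not_or] at hc
        exact ⟨c, hc.1, hc.2⟩
      obtain ⟨d₁, hd₁⟩ := hfull v hv0 z (l₁ • b) (hlb l₁)
      rcases huniq l₁ d₁ hd₁ with rfl | rfl
      · exact hl₁ (h00 l₁ hd₁)
      · have h3 : el v (l₁ • b) d₁ • el v (l₀ • b) d₁ • z = z := by rw [hfix₀, hd₁]
        rw [← mul_smul, el_mul (hlb _) (hlb _), ← add_smul, sympForm_smul_left, sympForm_smul_right,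
          sympForm_self, mul_zero, mul_zero, add_zero, ← two_mul, h2, zero_mul] at h3
        have h4 := h00 _ h3
        exact hl₂ ((eq_neg_of_add_eq_zero_left h4).trans (neg_two_eq h2 l₀))
  obtain ⟨v, hv, hC⟩ := (key a ha).2
  exact (key v hv).1 hC

/-- A fixed transvection is impossible. -/
lemma not_spT_fix (h2 : (2 : F) = 0) {d : V} (hd : d ≠ 0) {z : Ω} (h : spT d (1 : F) • z = z) :
    False := by
  have := cz_eq_bot S h2 hd (not_T1_two S h2 hd z)
  exact one_ne_zero ((AddSubgroup.eq_bot_iff_forall _).1 this 1 h)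

/-- In characteristic two the projection is a line. -/
lemma T0_two (h2 : (2 : F) = 0) {a : V} (ha : a ≠ 0) (z : Ω) : IsT0 a z := by
  classical
  by_contra h0
  have h1 := not_T1_two S h2 ha z
  obtain ⟨v, ⟨hvne, hva, hA⟩, -, -⟩ := classify S ha z h0 h1
  have hC := cz_eq_bot S h2 ha h1
  have huniq : ∀ {x : V} {c c' : F}, ω x a = 0 → el a x c • z = z → el a x c' • z = z → c' = c := by
    intro x c c' hx hc hc'
    have := (el_fix_iff hx hc).1 hc'
    rwa [hC, AddSubgroup.mem_bot, sub_eq_zero] at this
  have hlv : ∀ l : F, ω (l • v) a = 0 := fun l => by rw [sympForm_smul_left, hva, mul_zero]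
  -- the values on the line vanish
  have hzero : ∀ l : F, el a (l • v) 0 • z = z := by
    obtain ⟨μ, hμ0, hμ1⟩ : ∃ c : F, c ≠ 0 ∧ c ≠ 1 := by
      have := Fintype.ofFinite F
      obtain ⟨c, -, hc⟩ := Finset.exists_mem_notMem_of_card_lt_card (s := ({0, 1} : Finset F))
        (t := Finset.univ) (lt_of_le_of_lt Finset.card_le_two (by
          rw [Finset.card_univ, ← Nat.card_eq_fintype_card]; have := S.three_le; omega))
      simp only [Finset.mem_insert, Finset.mem_singleton, not_or] at hc
      exact ⟨c, hc.1, hc.2⟩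
    have hmem : ∀ l : F, ∃ φ, el a (l • v) φ • z = z := fun l =>
      ((hA (l • v)).2 ⟨hlv l, by rw [sympForm_smul_left, sympForm_self, mul_zero]⟩).2
    choose φ hφ using hmem
    have hadd : ∀ l l', φ (l + l') = φ l + φ l' := by
      intro l l'
      refine huniq (hlv _) ?_ (hφ _)
      have : el a (l • v) (φ l) • el a (l' • v) (φ l') • z = z := by rw [hφ, hφ]
      rwa [← mul_smul, el_mul (hlv _) (hlv _), ← add_smul, sympForm_smul_left, sympForm_smul_right,
        sympForm_self, mul_zero, mul_zero, add_zero] at this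
    obtain ⟨g, hga, hgv⟩ := exists_sp_map_indep a v a (μ • v) (indep_of_forall_ne ha hvne)
      (indep_of_forall_ne ha fun r h => hvne (μ⁻¹ * r) (by
        rw [← smul_smul, ← h, smul_smul, inv_mul_cancel₀ hμ0, one_smul]))
      (by rw [sympForm_smul_right, form_comm.1 hva, mul_zero])
    have hgA : g • az a z = az a z := by
      refine AddSubgroup.ext fun x => ?_
      rw [mem_smul_iff, hA, hA, ← sympForm_smul g (g⁻¹ • x) a, ← sympForm_smul g (g⁻¹ • x) v,
        smul_inv_smul, hga, hgv, sympForm_smul_right, mul_eq_zero]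
      simp [hμ0]
    obtain ⟨y, c, hy, hyz⟩ := exists_el_eq S ha h1 hga hgA
    have hinv : ∀ l, φ (μ * l) = φ l := by
      intro l
      refine huniq (hlv _) ?_ (hφ _)
      have h3 := el_fix_conj hga (hφ l)
      rw [smul_comm g l v, hgv, show l • μ • v = (μ * l) • v by rw [smul_smul, mul_comm], hyz, ← mul_smul, el_comm_two h2 (hlv _) hy,
        mul_smul, smul_left_cancel_iff] at h3
      exact h3
    intro l
    have hz : φ l = 0 := by
      have hne : μ + 1 ≠ 0 := fun e => hμ1 ((eq_neg_of_add_eq_zero_left e).trans (neg_two_eq h2 1))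
      have e := hadd (μ * (l / (μ + 1))) (l / (μ + 1))
      rw [hinv, ← two_mul, h2, zero_mul,
        show μ * (l / (μ + 1)) + l / (μ + 1) = l by field_simp] at e
      exact e
    rw [← hz]; exact hφ l
  -- the transvection of the line lifts
  have hTa : spT v (1 : F) • a = a := by rw [spT_smul, form_comm.1 hva]; simp
  have hTA : spT v (1 : F) • az a z = az a z := by
    refine AddSubgroup.ext fun x => ?_
    rw [mem_smul_iff, spT_inv, hA, hA, spT_smul, sympForm_add_left, sympForm_add_left,
      sympForm_smul_left, sympForm_smul_left, sympForm_self, hva, mul_zero, add_zero, add_zero]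
  obtain ⟨y₀, c₀, hy₀, hyz⟩ := exists_el_eq S ha h1 hTa hTA
  obtain ⟨y, c, hy, hfix⟩ : ∃ y c, ω y a = 0 ∧ el a y c • spT v (1 : F) • z = z :=
    ⟨-y₀, -c₀, by rw [form_neg_left, hy₀, neg_zero], by
      rw [hyz, ← el_inv hy₀, inv_smul_smul]⟩
  have hTy : spT v (1 : F) • y = y + ω y v • v := by rw [spT_smul, one_mul]
  have hconj : ∀ e : F, spT v (1 : F) * el a y e = el a (y + ω y v • v) e * spT v 1 := by
    intro e
    have := el_conj (spT v (1 : F)) a y e
    rw [hTa, hTy] at this
    exact mul_inv_eq_iff_eq_mul.1 this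
  have hy' : ω (y + ω y v • v) a = 0 := by rw [sympForm_add_left, hy, hlv, add_zero]
  have hρ : ω y v = 0 := by
    have h3 : el a y c • spT v (1 : F) • el a y c • spT v (1 : F) • z = z := by rw [hfix, hfix]
    rw [← mul_smul (spT v (1 : F)) (el a y c), hconj, mul_smul, ← mul_smul (spT v (1 : F)) (spT v (1 : F)),
      spT_add, show (1 : F) + 1 = 0 by linear_combination h2, spT_zero, one_smul, ← mul_smul,
      el_mul hy hy', sympForm_add_left, sympForm_self, sympForm_smul_left, sympForm_skew v y,
      show y + (y + ω y v • v) = ω y v • v by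
        rw [← add_assoc, ← two_smul F y, h2, zero_smul, zero_add]] at h3
    have := huniq (hlv _) (hzero _) h3
    exact mul_self_eq_zero.1 (show ω y v * ω y v = 0 by linear_combination -this + c * h2)
  obtain ⟨φ, hφ⟩ := ((hA y).2 ⟨hy, hρ⟩).2
  have hd : spT a (c - φ) • spT v (1 : F) • z = z := by
    have e := hconj φ
    rw [hρ, zero_smul, add_zero] at e
    calc spT a (c - φ) • spT v (1 : F) • z = spT a (c - φ) • spT v (1 : F) • el a y φ • z := by rw [hφ]
      _ = spT a (c - φ) • el a y φ • spT v (1 : F) • z := by rw [← mul_smul (spT v (1 : F)), e, mul_smul]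
      _ = el a y c • spT v (1 : F) • z := by
          rw [el_split' hy φ, el_split' hy c, mul_smul, mul_smul, ← mul_smul (spT a (c - φ)), spT_add,
            sub_add_cancel]
      _ = z := hfix
  obtain ⟨s, hs⟩ := exists_sqrt h2 (c - φ)
  refine not_spT_fix S h2 (d := s • a + v) (fun e => hvne (-s) (by
    rw [neg_smul, eq_neg_iff_add_eq_zero, add_comm]; exact e)) (z := z) ?_
  rw [spT_diag h2 hva hs, mul_smul, mul_smul, hd, hzero]

/-- In characteristic two every action is too large. -/
theorem even_false (h2 : (2 : F) = 0) {a : V} (ha : a ≠ 0) (z : Ω) : False := by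
  have hT : ∀ b : V, b ≠ 0 → ∀ x, x ∈ az b z → ∃ κ : F, κ • b = x := fun b hb x hx => by
    rw [show az b z = lineGrp b from T0_two S h2 hb z] at hx
    exact hx
  obtain ⟨w, hwa, hwne⟩ : ∃ w, ω w a = 0 ∧ ∀ r : F, w ≠ r • a := by
    by_contra hc2
    push Not at hc2
    have hle : perpGrp a ≤ lineGrp a := fun x hx => by
      obtain ⟨r, hr⟩ := hc2 x hx
      exact ⟨r, hr.symm⟩
    obtain ⟨Q, -, hQ', hQ2⟩ := S.qQ
    have := AddSubgroup.card_le_of_le hle
    rw [card_perpGrp S ha, card_lineGrp ha, hQ'] at this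
    have h3 := S.three_le
    have := Nat.mul_le_mul_left q hQ2
    nlinarith
  have h1 := not_T1_two S h2 ha z
  have hTa : ∀ x : V, ω x a = 0 → spT x (1 : F) • a = a := fun x hx => by
    rw [spT_smul, form_comm.1 hx]; simp
  have lift : ∀ x : V, ω x a = 0 → ∃ y c, ω y a = 0 ∧ el a y c • spT x (1 : F) • z = z := by
    intro x hx
    have hA : spT x (1 : F) • az a z = az a z := by
      rw [show az a z = lineGrp a from T0_two S h2 ha z]
      refine AddSubgroup.ext fun v => ?_
      rw [mem_smul_iff, mem_lineGrp, mem_lineGrp]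
      refine exists_congr fun κ => ⟨fun h => ?_, fun h => ?_⟩
      · rw [← smul_inv_smul (spT x (1 : F)) v, ← h, smul_comm, hTa x hx]
      · rw [← h, smul_comm, inv_smul_eq_iff.2 (hTa x hx).symm]
    obtain ⟨y₀, c₀, hy₀, hyz⟩ := exists_el_eq S ha h1 (hTa x hx) hA
    exact ⟨-y₀, -c₀, by rw [form_neg_left, hy₀, neg_zero], by rw [hyz, ← el_inv hy₀, inv_smul_smul]⟩
  have conj : ∀ x : V, ω x a = 0 → ∀ (y : V) (e : F),
      spT x (1 : F) * el a y e = el a (y + ω y x • x) e * spT x 1 := by
    intro x hx y e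
    have := el_conj (spT x (1 : F)) a y e
    rw [hTa x hx, spT_smul, one_mul] at this
    exact mul_inv_eq_iff_eq_mul.1 this
  have mem : ∀ {v : V} {c : F}, ω v a = 0 → el a v c • z = z → ∃ κ : F, κ • a = v := fun hv h =>
    hT a ha _ ⟨hv, _, h⟩
  obtain ⟨y, c, hy, hfix⟩ := lift w hwa
  have hy' : ω (y + ω y w • w) a = 0 := by
    rw [sympForm_add_left, hy, sympForm_smul_left, hwa, mul_zero, add_zero]
  have hρ : ω y w = 0 := by
    have h3 : el a y c • spT w (1 : F) • el a y c • spT w (1 : F) • z = z := by rw [hfix, hfix]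
    rw [← mul_smul (spT w (1 : F)) (el a y c), conj w hwa, mul_smul,
      ← mul_smul (spT w (1 : F)) (spT w (1 : F)),
      spT_add, show (1 : F) + 1 = 0 by linear_combination h2, spT_zero, one_smul, ← mul_smul,
      el_mul hy hy', show y + (y + ω y w • w) = ω y w • w by
        rw [← add_assoc, ← two_smul F y, h2, zero_smul, zero_add]] at h3
    obtain ⟨κ, hκ⟩ := mem (by rw [sympForm_smul_left, hwa, mul_zero]) h3
    by_contra hne
    exact hwne ((ω y w)⁻¹ * κ) (by rw [← smul_smul, hκ, smul_smul, inv_mul_cancel₀ hne, one_smul])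
  -- the vector lies in the plane
  obtain ⟨κ, l, rfl⟩ : ∃ κ l : F, y = κ • a + l • w := by
    by_contra hc
    push Not at hc
    obtain ⟨x, hxa, hxw, hxy⟩ := exists_perp_two hc (1 : F)
    obtain ⟨y', c', hy2, hfix'⟩ := lift x hxa
    have h4 : el a y c • spT w (1 : F) • el a y' c' • spT x (1 : F) • z = z := by rw [hfix', hfix]
    have h5 : el a y' c' • spT x (1 : F) • el a y c • spT w (1 : F) • z = z := by rw [hfix, hfix']
    have hyx : ω y x = 1 := by rw [sympForm_skew, hxy, neg_two_eq h2]
    have hy2' : ω (y' + ω y' w • w) a = 0 := by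
      rw [sympForm_add_left, hy2, sympForm_smul_left, hwa, mul_zero, add_zero]
    have hy'' : ω (y + (1 : F) • x) a = 0 := by rw [sympForm_add_left, hy, one_smul, hxa, add_zero]
    have hcomm : spT x (1 : F) * spT w 1 = spT w 1 * spT x 1 := by
      have := conj_spT (spT x (1 : F)) w 1
      rw [spT_smul, form_comm.1 hxw, mul_zero, zero_smul, add_zero] at this
      exact mul_inv_eq_iff_eq_mul.1 this
    rw [← mul_smul (spT w (1 : F)) (el a y' c'), conj w hwa, mul_smul, ← mul_smul (el a y c),
      el_mul hy hy2'] at h4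
    rw [← mul_smul (spT x (1 : F)) (el a y c), conj x hxa, hyx, mul_smul, ← mul_smul (el a y' c'),
      el_mul hy2 hy'', ← mul_smul (spT x (1 : F)) (spT w 1), hcomm, mul_smul] at h5
    set P := spT w (1 : F) • spT x (1 : F) • z
    have hs1 : ω (y + (y' + ω y' w • w)) a = 0 := by rw [sympForm_add_left, hy, hy2', add_zero]
    have hs2 : ω (y' + (y + (1 : F) • x)) a = 0 := by rw [sympForm_add_left, hy2, hy'', add_zero]
    obtain ⟨E1, hE1⟩ : ∃ e, el a (y + (y' + ω y' w • w)) e • P = z := ⟨_, h4⟩
    obtain ⟨E2, hE2⟩ : ∃ e, el a (y' + (y + (1 : F) • x)) e • P = z := ⟨_, h5⟩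
    have hE : el a (y + (y' + ω y' w • w)) E1 • el a (-(y' + (y + (1 : F) • x))) (-E2) • z = z := by
      rw [← el_inv hs2]
      conv_lhs => rw [← hE2]
      rw [inv_smul_smul, hE1]
    rw [← mul_smul, el_mul hs1 (by rw [form_neg_left, hs2, neg_zero])] at hE
    obtain ⟨κ, hκ⟩ := mem (by rw [sympForm_add_left, hs1, form_neg_left, hs2]; ring) hE
    have h6 := congrArg (fun v => ω v y) hκ
    simp only [sympForm_add_left, form_neg_left, sympForm_smul_left, form_comm.1 hy, hxy,
      form_comm.1 hρ, sympForm_self] at h6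
    exact one_ne_zero (show (1 : F) = 0 by linear_combination h6)
  rw [add_comm, el_add_fst (by rw [sympForm_smul_left, hwa, mul_zero]), h2, zero_mul, add_zero] at hfix
  obtain ⟨s, hs⟩ := exists_sqrt h2 c
  set d := s • a + w with hd
  have hd0 : d ≠ 0 := fun e => hwne (-s) (by
    rw [neg_smul, eq_neg_iff_add_eq_zero, add_comm]; exact e)
  have hda : ω d a = 0 := by rw [hd, sympForm_add_left, sympForm_smul_left, sympForm_self, hwa]; ring
  have hlw : ω (l • w) a = 0 := by rw [sympForm_smul_left, hwa, mul_zero]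
  have hsw : ω (s • w) a = 0 := by rw [sympForm_smul_left, hwa, mul_zero]
  have hl' : ω ((l + s) • w) a = 0 := by rw [sympForm_smul_left, hwa, mul_zero]
  have e1 : el a (l • w) c = el a ((l + s) • w) 0 * el a (s • w) 0 * spT a c := by
    rw [el_mul hl' hsw, ← add_smul, sympForm_smul_left, sympForm_smul_right, sympForm_self, mul_zero,
      mul_zero, add_zero, add_zero, show l + s + s = l by linear_combination s * h2, ← el_split hlw]
  have hρa : ω ((l + s) • a) d = 0 := by rw [sympForm_smul_left, form_comm.1 hda, mul_zero]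
  have e2 : el a ((l + s) • w) 0 = el d ((l + s) • a) 0 := by
    have hdw : (l + s) • w = (l + s) • d + (-((l + s) * s)) • a := by rw [hd]; module
    rw [hdw, el_add_fst (by rw [sympForm_smul_left, hda, mul_zero]), h2, zero_mul, add_zero,
      el_swap (by rw [sympForm_smul_left, hda, mul_zero]), el_smul_fst (form_comm.1 hda), mul_zero]
  rw [e1, mul_smul, mul_smul, ← mul_smul (spT a c), ← mul_smul (el a (s • w) 0), ← spT_diag h2 hwa hs,
    ← hd, e2, ← el_zero d 1, ← mul_smul, el_mul hρa (form_zero_left d), add_zero, form_zero_left,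
    add_zero, zero_add] at hfix
  obtain ⟨κ', hκ'⟩ := hT d hd0 _ ⟨hρa, _, hfix⟩
  have hls : l + s = 0 := by
    by_contra hne
    have h7 : a = ((l + s)⁻¹ * κ') • d := by
      rw [← smul_smul, hκ', smul_smul, inv_mul_cancel₀ hne, one_smul]
    set r := (l + s)⁻¹ * κ' with hr
    by_cases hr0 : r = 0
    · exact ha (by rw [h7, hr0, zero_smul])
    · refine hwne (r⁻¹ - s) ?_
      rw [sub_smul, eq_sub_iff_add_eq, add_comm, ← hd, h7, smul_smul, inv_mul_cancel₀ hr0, one_smul]
  rw [hls, zero_smul, el_zero] at hfix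
  exact not_spT_fix S h2 hd0 hfix

end CfsgLib.MinIndexSympGen
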