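import Cfsg.Agent.Lib.MinIndex.SympGen.Subspace

/-!
A point of a small action is not fixed by a whole transvection group: the centres of such groups
span a subspace, or a short list of orthogonal subspaces, kept by the stabiliser.
-/

set_option autoImplicit false
set_option linter.unusedSectionVars false

namespace CfsgLib.MinIndexSympGen

open CfsgLib.ClassicalLinear MulAction Module
open scoped Pointwise

universe u

variable {F : Type u} [Field F] {m : ℕ}

local notation "V" => (Fin m ⊕ Fin m → F)
local notation "Sp" => Matrix.symplecticGroup (Fin m) F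
local notation "ω" => Cfsg.sympForm m F
local notation "q" => Nat.card F

variable {Ω : Type*} [MulAction (Matrix.symplecticGroup (Fin m) F) Ω]

/-- The whole transvection group of a vector fixes the point. -/
def InK (z : Ω) (v : V) : Prop := ∀ c : F, spT v c • z = z

/-- Two centres are related if they, or a common neighbour, are not orthogonal. -/
def Rel (z : Ω) (v w : V) : Prop := ω v w ≠ 0 ∨ ∃ u, InK z u ∧ ω v u ≠ 0 ∧ ω w u ≠ 0

variable {z : Ω}

lemma inK_zero : InK z (0 : V) := fun c => by
  rw [show spT (0 : V) c = 1 from sp_ext fun x => by rw [spT_smul, smul_zero, add_zero, one_smul],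
    one_smul]

lemma inK_smul {v : V} (h : InK z v) (r : F) : InK z (r • v) := fun c => by
  rw [spT_smul_vec]; exact h _

lemma inK_conj {g : Sp} (hg : g • z = z) {v : V} (h : InK z v) : InK z (g • v) := fun c => by
  rw [← conj_spT, mul_smul, mul_smul, inv_smul_eq_iff.2 hg.symm, h c, hg]

lemma inK_pair {v w : V} (hv : InK z v) (hw : InK z w) (h : ω v w ≠ 0) (t : F) :
    InK z (v + t • w) := by
  have := inK_conj (hw (t / ω v w)) hv
  rwa [spT_smul, div_mul_cancel₀ _ h] at this

lemma rel_symm {v w : V} (h : Rel z v w) : Rel z w v :=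
  h.elim (fun h => Or.inl fun e => h (form_comm.1 e)) fun ⟨u, hu, h1, h2⟩ => Or.inr ⟨u, hu, h2, h1⟩

lemma rel_step {v x w : V} (hx : InK z x) (h1 : Rel z v x) (h2 : ω x w ≠ 0) :
    Rel z v w := by
  have h2' : ω w x ≠ 0 := fun e => h2 (form_comm.1 e)
  rcases h1 with h1 | ⟨u, hu, hvu, hxu⟩
  · exact Or.inr ⟨x, hx, h1, h2'⟩
  by_cases hvx : ω v x = 0
  · by_cases huw : ω w u = 0
    · refine Or.inr ⟨u + (1 : F) • x, inK_pair hu hx (fun e => hxu (form_comm.1 e)) 1, ?_, ?_⟩
      · rw [sympForm_add_right, sympForm_smul_right, hvx, mul_zero, add_zero]; exact hvu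
      · rw [sympForm_add_right, sympForm_smul_right, huw, zero_add, one_mul]; exact h2'
    · exact Or.inr ⟨u, hu, hvu, huw⟩
  · exact Or.inr ⟨x, hx, hvx, h2'⟩

lemma rel_trans {v w y : V} (hw : InK z w) (h1 : Rel z v w) (h2 : Rel z w y) :
    Rel z v y := by
  rcases h2 with h2 | ⟨u, hu, h3, h4⟩
  · exact rel_step hw h1 h2
  · exact rel_step hu (rel_step hw h1 h3) (fun e => h4 (form_comm.1 e))

/-- Stable subspaces are translated to themselves. -/
lemma smul_toAddSubgroup {S T : Submodule F V} (g : Sp) (h : ∀ x ∈ S, g • x ∈ T)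
    (h' : ∀ x ∈ T, g⁻¹ • x ∈ S) : g • S.toAddSubgroup = T.toAddSubgroup := by
  refine AddSubgroup.ext fun x => ?_
  rw [mem_smul_iff]
  exact ⟨fun hx => by simpa using h _ hx, h' x⟩

lemma smul_span_mem (g : Sp) {s : Set V} {T : Submodule F V} (h : ∀ x ∈ s, g • x ∈ T) {x : V}
    (hx : x ∈ Submodule.span F s) : g • x ∈ T := by
  induction hx using Submodule.span_induction with
  | mem y hy => exact h y hy
  | zero => rw [smul_zero]; exact T.zero_mem
  | add a b _ _ ha hb => rw [smul_add]; exact T.add_mem ha hb
  | smul c a _ ha => rw [smul_comm]; exact T.smul_mem c ha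

/-- Mutually orthogonal non-degenerate subspaces are independent. -/
lemma sum_finrank_le {I : Type*} [Fintype I] (S : I → Submodule F V) (hS : ∀ i, IsND (S i))
    (horth : ∀ i j, i ≠ j → ∀ x ∈ S i, ∀ y ∈ S j, ω x y = 0) :
    ∑ i, finrank F (S i) ≤ 2 * m := by
  classical
  let L : (∀ i, S i) →ₗ[F] V :=
    { toFun := fun f => ∑ i, (f i : V)
      map_add' := fun f g => by simp [Finset.sum_add_distrib]
      map_smul' := fun c f => by simp [Finset.smul_sum] }
  have hL : Function.Injective L := by
    rw [injective_iff_map_eq_zero]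
    intro f hf
    funext i
    refine Subtype.ext (hS i _ (f i).2 fun y hy => ?_)
    have h : (Omega.sympBilin m F) (∑ j, (f j : V)) y = 0 := by
      rw [show ∑ j, (f j : V) = 0 from hf, map_zero, LinearMap.zero_apply]
    rw [map_sum, LinearMap.sum_apply, Finset.sum_eq_single i
      (fun j _ hji => by rw [Omega.sympBilin_apply]; exact horth j i hji _ (f j).2 y hy)
      (fun hi => absurd (Finset.mem_univ i) hi), Omega.sympBilin_apply] at h
    exact h
  have := LinearMap.finrank_le_finrank_of_injective hL
  rwa [Module.finrank_pi_fintype, Module.finrank_pi, Fintype.card_sum, Fintype.card_fin, ← two_mul] at this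

lemma inK_of_line (h3 : ∃ u : F, u ≠ 0 ∧ u ≠ 1) {v p : V} (hvp : ω v p = 0)
    (h : ∀ t : F, InK z (v + t • p)) : InK z p := by
  have hv : InK z v := by simpa using h 0
  have hpv : ω p v = 0 := form_comm.1 hvp
  have key : ∀ c t : F, el p ((c * t) • v) (c * t * t) • z = z := by
    intro c t
    have e : spT (v + t • p) c = el p ((c * t) • v) (c * t * t) * spT v c := by
      refine sp_ext fun x => ?_
      rw [mul_smul, el_apply (by rw [sympForm_smul_left, hvp, mul_zero])]
      simp only [spT_smul, sympForm_add_left, sympForm_add_right, sympForm_smul_left,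
        sympForm_smul_right, sympForm_self, hvp, hpv]
      module
    have := h t c
    rwa [e, mul_smul, hv c] at this
  have hcz : ∀ u : F, u ≠ 1 → u ∈ cz p z := by
    intro u hu
    have hγ : (1 - u) ≠ 0 := sub_ne_zero.2 (Ne.symm hu)
    have h1 := key 1 1
    have h2 := key (1 - u)⁻¹ (1 - u)
    rw [inv_mul_cancel₀ hγ, one_mul] at h2
    rw [mul_one, mul_one] at h1
    have := (el_fix_iff (by rw [one_smul, hvp]) h2).1 h1
    rwa [show (1 : F) - (1 - u) = u by ring] at this
  intro c
  by_cases hc : c = 1
  · obtain ⟨u, hu0, hu1⟩ := h3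
    rw [hc, show (1 : F) = u + (1 - u) by ring]
    exact add_mem (hcz u hu1) (hcz (1 - u) fun e => hu0 (by linear_combination -e))
  · exact hcz c hc

/-- Related centres have their sums as centres. -/
lemma inK_add (h3 : ∃ u : F, u ≠ 0 ∧ u ≠ 1) {v w : V} (hv : InK z v) (hw : InK z w)
    (hr : Rel z v w) : InK z (v + w) := by
  by_cases hvw : ω v w = 0
  swap
  · simpa using inK_pair hv hw hvw 1
  obtain ⟨u, hu, hvu, hwu⟩ := hr.resolve_left (by simp [hvw])
  have hgen : ∀ t : F, ω v u + t * ω w u ≠ 0 → InK z (v + t • w) := by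
    intro t ht
    have h1 : InK z (v + (1 : F) • u) := inK_pair hv hu hvu 1
    have h2 : ω (v + (1 : F) • u) w ≠ 0 := by
      rw [sympForm_add_left, hvw, sympForm_smul_left, zero_add, one_mul]
      exact fun e => hwu (form_comm.1 e)
    have h4 : InK z (v + (1 : F) • u + t • w) := inK_pair h1 hw h2 t
    have h5 : ω (v + (1 : F) • u + t • w) u ≠ 0 := by
      rw [sympForm_add_left, sympForm_add_left, sympForm_smul_left, sympForm_smul_left, sympForm_self,
        mul_zero, add_zero]
      exact ht
    have h6 := inK_pair h4 hu h5 (-1)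
    rwa [show v + (1 : F) • u + t • w + (-1 : F) • u = v + t • w by module] at h6
  by_cases h1 : ω v u + ω w u = 0
  · refine inK_of_line h3 (v := v) (by rw [sympForm_add_right, sympForm_self, hvw, add_zero]) fun t => ?_
    by_cases ht : 1 + t = 0
    · have := inK_smul hw (-1)
      rwa [show v + t • (v + w) = (-1 : F) • w by
        rw [show t = -1 by linear_combination ht]; module]
    · have hr' : InK z (v + (t / (1 + t)) • w) := hgen _ fun e => by
        have hu' : ω v u = -ω w u := by linear_combination h1
        rw [hu'] at e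
        field_simp at e
        have : ω w u * (1 : F) = 0 := by linear_combination -e
        exact hwu (by simpa using this)
      have := inK_smul hr' (1 + t)
      rwa [smul_add, smul_smul, mul_div_cancel₀ _ ht,
        show (1 + t) • v + t • w = v + t • (v + w) by module] at this
  · simpa using hgen 1 (by simpa using h1)

variable [Finite F] [Finite Ω] [IsPretransitive (Matrix.symplecticGroup (Fin m) F) Ω]

/-- A short list of subspaces kept by the stabiliser gives too many points. -/
lemma translates_contra (hsmall : (q - 1) * Nat.card Ω + 1 < q ^ (2 * m)) (z : Ω) (S : Submodule F V)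
    (X : Set (AddSubgroup V)) (hX : ∀ g : Sp, g • z = z → ∀ A ∈ X, g • A ∈ X)
    (hS : S.toAddSubgroup ∈ X) {a : V} (haS : a ∈ S) (ha : a ≠ 0)
    (h : Nat.card X * (q ^ finrank F S - 1) ≤
      (q - 1) * Nat.card {B : translates S.toAddSubgroup // a ∈ (B : AddSubgroup V)}) : False := by
  have h1 := incidence_translates S.toAddSubgroup ha
  have h2 := card_translates_le z X hX hS
  have hcard : Nat.card S.toAddSubgroup = q ^ finrank F S :=
    show Nat.card S = _ from Module.natCard_eq_pow_finrank (K := F)
  rw [hcard] at h1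
  set μ := Nat.card {B : translates S.toAddSubgroup // a ∈ (B : AddSubgroup V)}
  obtain ⟨N, hN⟩ : ∃ N, q ^ (2 * m) = N + 1 := ⟨q ^ (2 * m) - 1, by omega⟩
  rw [hN, Nat.add_sub_cancel] at h1
  rw [hN] at hsmall
  have hμ : 0 < μ := by
    have : Nonempty {B : translates S.toAddSubgroup // a ∈ (B : AddSubgroup V)} :=
      ⟨⟨⟨S.toAddSubgroup, 1, one_smul _ _⟩, haS⟩⟩
    exact Nat.card_pos
  have hq : 1 < q := Finite.one_lt_card
  have hlt : (q - 1) * Nat.card Ω < N := by omega
  have hN0 : 0 < N := by omega
  have hX1 : 0 < Nat.card X * (q ^ finrank F S - 1) := by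
    have : Nonempty X := ⟨⟨_, hS⟩⟩
    refine Nat.mul_pos Nat.card_pos ?_
    have hpos : 0 < finrank F S := by
      rw [Module.finrank_pos_iff]
      exact ⟨⟨a, haS⟩, 0, fun e => ha (congrArg Subtype.val e)⟩
    have : 1 < q ^ finrank F S := Nat.one_lt_pow (by omega) hq
    omega
  have h5 : (q - 1) * (μ * N) ≤ (q - 1) * Nat.card Ω * (Nat.card X * (q ^ finrank F S - 1)) := by
    rw [← h1]
    calc (q - 1) * (Nat.card (translates S.toAddSubgroup) * (q ^ finrank F S - 1))
        ≤ (q - 1) * (Nat.card Ω * Nat.card X * (q ^ finrank F S - 1)) :=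
          Nat.mul_le_mul_left _ (Nat.mul_le_mul_right _ h2)
      _ = _ := by ring
  have h6 := Nat.mul_lt_mul_of_pos_right hlt hX1
  have h7 := Nat.mul_le_mul_left N h
  have h8 : (q - 1) * (μ * N) = N * ((q - 1) * μ) := by ring
  omega

/-- A small non-degenerate subspace cannot be one of few kept ones. -/
lemma nd_contra (hq : 3 ≤ q) (hsmall : (q - 1) * Nat.card Ω + 1 < q ^ (2 * m)) (z : Ω)
    (S : Submodule F V) (hS : IsND S) (hne : S ≠ ⊥) (X : Set (AddSubgroup V))
    (hX : ∀ g : Sp, g • z = z → ∀ A ∈ X, g • A ∈ X) (hSX : S.toAddSubgroup ∈ X)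
    (hdim : finrank F S ≤ m) (hr : Nat.card X * finrank F S ≤ 2 * m) : False := by
  obtain ⟨a, haS, ha⟩ := S.exists_mem_ne_zero_of_ne_bot hne
  refine translates_contra hsmall z S X hX hSX haS ha ?_
  have hμ := nondeg_mult hS haS ha
  have h2 : 2 ≤ finrank F S := by
    obtain ⟨b, hb, hab⟩ : ∃ b ∈ S, ω a b ≠ 0 := by
      by_contra hc
      push Not at hc
      exact ha (hS a haS hc)
    have hi : LinearIndependent F ![(⟨a, haS⟩ : S), ⟨b, hb⟩] := by
      rw [LinearIndependent.pair_iff' (fun e => ha (congrArg Subtype.val e))]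
      intro t e
      apply hab
      have e' : t • a = b := congrArg Subtype.val e
      rw [← e', sympForm_smul_right, sympForm_self, mul_zero]
    simpa using hi.fintype_card_le_finrank
  have hj := finrank_orthSub S
  obtain ⟨j, hj'⟩ : ∃ j, m = finrank F S + j := ⟨m - finrank F S, by omega⟩
  have he : finrank F (orthSub S) = finrank F S + 2 * j := by omega
  rw [he, pow_add] at hμ
  have hr2 : Nat.card X ≤ 2 + j := by
    have hr' : Nat.card X * finrank F S ≤ 2 * (finrank F S + j) := le_trans hr (by omega)
    have h5 : Nat.card X * finrank F S ≤ (2 + j) * finrank F S :=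
      le_trans hr' (by nlinarith [Nat.mul_le_mul_left j h2])
    exact Nat.le_of_mul_le_mul_right h5 (by omega)
  have hpow : 2 + j ≤ 2 * q ^ (2 * j) := by
    have h9 : j < q ^ (2 * j) :=
      lt_of_lt_of_le (Nat.lt_pow_self (n := j) (by omega : 1 < q)) (Nat.pow_le_pow_right (by omega) (by omega))
    omega
  calc Nat.card X * (q ^ finrank F S - 1) ≤ (2 * q ^ (2 * j)) * q ^ finrank F S :=
        Nat.mul_le_mul (hr2.trans hpow) (Nat.sub_le _ _)
    _ ≤ (q - 1) * (q ^ finrank F S * q ^ (2 * j)) := by
        rw [mul_assoc, mul_comm (q ^ (2 * j))]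
        exact Nat.mul_le_mul_right _ (by omega)
    _ ≤ _ := Nat.mul_le_mul_left _ hμ

/-- In a small non-trivial action no transvection group fixes a point. -/
theorem moved_all (hq : 3 ≤ q) (hsmall : (q - 1) * Nat.card Ω + 1 < q ^ (2 * m))
    (hnt : ∀ z : Ω, ∃ g : Sp, g • z ≠ z) (a : V) (ha : a ≠ 0) (z : Ω) : cz a z ≠ ⊤ := by
  intro htop
  classical
  have h3 : ∃ u : F, u ≠ 0 ∧ u ≠ 1 := by
    have := Fintype.ofFinite F
    obtain ⟨c, -, hc⟩ := Finset.exists_mem_notMem_of_card_lt_card (s := ({0, 1} : Finset F))
      (t := Finset.univ) (lt_of_le_of_lt Finset.card_le_two (by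
        rw [Finset.card_univ, ← Nat.card_eq_fintype_card]; omega))
    simp only [Finset.mem_insert, Finset.mem_singleton, not_or] at hc
    exact ⟨c, hc.1, hc.2⟩
  have haK : InK z a := fun c => by
    have hc : c ∈ cz a z := by rw [htop]; trivial
    exact hc
  set S := Submodule.span F {v : V | InK z v} with hSdef
  have hstab : ∀ g : Sp, g • z = z → ∀ x ∈ S, g • x ∈ S := fun g hg x hx =>
    smul_span_mem g (fun y hy => Submodule.subset_span (inK_conj hg hy)) hx
  have hinv : ∀ g : Sp, g • z = z → g⁻¹ • z = z := fun g hg => inv_smul_eq_iff.2 hg.symm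
  have hfix : ∀ (T : Submodule F V), (∀ g : Sp, g • z = z → ∀ x ∈ T, g • x ∈ T) →
      ∀ g : Sp, g • z = z → ∀ A ∈ ({T.toAddSubgroup} : Set (AddSubgroup V)),
        g • A ∈ ({T.toAddSubgroup} : Set (AddSubgroup V)) := by
    intro T hT g hg A hA
    rw [Set.mem_singleton_iff] at hA ⊢
    rw [hA, smul_toAddSubgroup g (hT g hg) (hT g⁻¹ (hinv g hg))]
  have horth : ∀ T : Submodule F V, (∀ g : Sp, g • z = z → ∀ x ∈ T, g • x ∈ T) →
      ∀ g : Sp, g • z = z → ∀ x ∈ orthSub T, g • x ∈ orthSub T := by
    intro T hT g hg x hx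
    rw [mem_orthSub]
    intro y hy
    rw [← smul_inv_smul g y, sympForm_smul]
    exact mem_orthSub.1 hx _ (hT g⁻¹ (hinv g hg) y hy)
  by_cases hStop : S = ⊤
  · have hnbr : ∀ v : V, v ≠ 0 → InK z v → Rel z v v := by
      intro v hv _
      by_contra hc
      refine hv (Omega.sympBilin_nondegenerate v fun y => ?_)
      rw [Omega.sympBilin_apply]
      have hy : y ∈ S := by rw [hStop]; trivial
      induction hy using Submodule.span_induction with
      | mem y hy =>
        by_contra hne
        exact hc (Or.inr ⟨y, hy, hne, hne⟩)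
      | zero => exact form_zero_right v
      | add x y _ _ hx hy => rw [sympForm_add_right, hx, hy, add_zero]
      | smul c x _ hx => rw [sympForm_smul_right, hx, mul_zero]
    by_cases hall : ∀ v w : V, v ≠ 0 → w ≠ 0 → InK z v → InK z w → Rel z v w
    · let K : Submodule F V :=
        { carrier := {v | InK z v}
          zero_mem' := inK_zero
          add_mem' := fun {v w} hv hw => by
            by_cases hv0 : v = 0
            · subst hv0; simpa using hw
            by_cases hw0 : w = 0
            · subst hw0; simpa using hv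
            exact inK_add h3 hv hw (hall v w hv0 hw0 hv hw)
          smul_mem' := fun r v hv => inK_smul hv r }
      have hK : ∀ v, InK z v := fun v =>
        (Submodule.span_le (p := K)).2 (fun x hx => hx) (by
          show v ∈ S
          rw [hStop]; trivial)
      obtain ⟨g, hg⟩ := hnt z
      refine hg ?_
      have hle : Subgroup.closure {g : Sp | ∃ (w : V) (c : F), g = spT w c} ≤ stabilizer Sp z := by
        rw [Subgroup.closure_le]
        rintro _ ⟨w, c, rfl⟩
        exact hK w c
      rw [closure_spT_eq_top] at hle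
      exact hle (Subgroup.mem_top g)
    push Not at hall
    obtain ⟨v₀, w₀, hv₀, hw₀, hv₀K, hw₀K, hvw⟩ := hall
    let comp : V → Submodule F V := fun v => Submodule.span F {u | InK z u ∧ u ≠ 0 ∧ Rel z v u}
    let I : Set (Submodule F V) := comp '' {v | InK z v ∧ v ≠ 0}
    have hequiv : ∀ v w, InK z v → InK z w → Rel z v w → comp v = comp w := by
      intro v w hv hw hr
      show Submodule.span F _ = Submodule.span F _
      congr 1
      ext u
      exact ⟨fun ⟨a1, a2, a3⟩ => ⟨a1, a2, rel_trans hv (rel_symm hr) a3⟩,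
        fun ⟨a1, a2, a3⟩ => ⟨a1, a2, rel_trans hw hr a3⟩⟩
    have horthc : ∀ v w, InK z v → InK z w → ¬ Rel z v w → ∀ x ∈ comp v, ∀ y ∈ comp w, ω x y = 0 := by
      intro v w hv hw hr x hx
      induction hx using Submodule.span_induction with
      | mem x hx =>
        intro y hy
        induction hy using Submodule.span_induction with
        | mem y hy =>
          by_contra hne
          exact hr (rel_trans hy.1 (rel_trans hx.1 hx.2.2 (Or.inl hne)) (rel_symm hy.2.2))
        | zero => exact form_zero_right x
        | add a b _ _ ha hb => rw [sympForm_add_right, ha, hb, add_zero]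
        | smul c a _ ha => rw [sympForm_smul_right, ha, mul_zero]
      | zero => intro y _; exact form_zero_left y
      | add a b _ _ ha hb => intro y hy; rw [sympForm_add_left, ha y hy, hb y hy, add_zero]
      | smul c a _ ha => intro y hy; rw [sympForm_smul_left, ha y hy, mul_zero]
    have hmemc : ∀ v, InK z v → v ≠ 0 → v ∈ comp v := fun v hv hv0 =>
      Submodule.subset_span ⟨hv, hv0, hnbr v hv0 hv⟩
    have hndc : ∀ v, InK z v → IsND (comp v) := by
      intro v hv x hx h
      refine Omega.sympBilin_nondegenerate x fun y => ?_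
      rw [Omega.sympBilin_apply]
      have hy : y ∈ S := by rw [hStop]; trivial
      induction hy using Submodule.span_induction with
      | mem y hy =>
        by_cases hy0 : y = 0
        · rw [hy0, form_zero_right]
        by_cases hr : Rel z v y
        · exact h y (Submodule.subset_span ⟨hy, hy0, hr⟩)
        · exact horthc v y hv hy hr x hx y (hmemc y hy hy0)
      | zero => exact form_zero_right x
      | add a b _ _ ha hb => rw [sympForm_add_right, ha, hb, add_zero]
      | smul c a _ ha => rw [sympForm_smul_right, ha, mul_zero]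
    obtain ⟨S₁, hS₁, hmin⟩ := Set.exists_min_image I (fun T => finrank F T) (Set.toFinite _)
      ⟨comp v₀, v₀, ⟨hv₀K, hv₀⟩, rfl⟩
    obtain ⟨v, ⟨hvK, hv⟩, rfl⟩ := hS₁
    let J : Set (Submodule F V) := {T ∈ I | finrank F T = finrank F (comp v)}
    have hconj : ∀ g : Sp, g • z = z → ∀ u, InK z u →
        g • (comp u).toAddSubgroup = (comp (g • u)).toAddSubgroup := by
      have key : ∀ g : Sp, g • z = z → ∀ u, ∀ x ∈ comp u, g • x ∈ comp (g • u) := by
        intro g hg u x hx
        refine smul_span_mem g (fun y hy => Submodule.subset_span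
          (s := {w | InK z w ∧ w ≠ 0 ∧ Rel z (g • u) w}) ⟨inK_conj hg hy.1,
          fun e => hy.2.1 (by simpa using congrArg (fun t => g⁻¹ • t) e), ?_⟩) hx
        rcases hy.2.2 with h | ⟨t, ht, h1, h2⟩
        · exact Or.inl (by rwa [sympForm_smul])
        · exact Or.inr ⟨g • t, inK_conj hg ht, by rwa [sympForm_smul], by rwa [sympForm_smul]⟩
      intro g hg u _
      refine smul_toAddSubgroup g (key g hg u) fun x hx => ?_
      have := key g⁻¹ (hinv g hg) (g • u) x hx
      rwa [inv_smul_smul] at this
    let X : Set (AddSubgroup V) := Submodule.toAddSubgroup '' J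
    refine nd_contra hq hsmall z (comp v) (hndc v hvK) (fun e => hv ?_) X ?_
      (Set.mem_image_of_mem _ (show comp v ∈ J from ⟨⟨v, ⟨hvK, hv⟩, rfl⟩, rfl⟩)) ?_ ?_
    · have := hmemc v hvK hv
      rwa [e, Submodule.mem_bot] at this
    · rintro g hg _ ⟨_, ⟨⟨u, ⟨huK, hu⟩, rfl⟩, hfr⟩, rfl⟩
      refine ⟨comp (g • u), ⟨⟨g • u, ⟨inK_conj hg huK,
        fun e => hu (by simpa using congrArg (fun t => g⁻¹ • t) e)⟩, rfl⟩, ?_⟩, (hconj g hg u huK).symm⟩
      rw [← hfr]
      have hc : Nat.card (comp (g • u)).toAddSubgroup = Nat.card (comp u).toAddSubgroup := by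
        rw [← hconj g hg u huK]
        exact (Nat.card_congr
          { toFun := fun x => ⟨g • (x : V), AddSubgroup.smul_mem_pointwise_smul _ g _ x.2⟩
            invFun := fun y => ⟨g⁻¹ • (y : V), mem_smul_iff.1 y.2⟩
            left_inv := fun x => Subtype.ext (inv_smul_smul g (x : V))
            right_inv := fun y => Subtype.ext (smul_inv_smul g (y : V)) }).symm
      have e1 : Nat.card (comp (g • u)).toAddSubgroup = q ^ finrank F (comp (g • u)) :=
        show Nat.card (comp (g • u)) = _ from Module.natCard_eq_pow_finrank (K := F)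
      have e2 : Nat.card (comp u).toAddSubgroup = q ^ finrank F (comp u) :=
        show Nat.card (comp u) = _ from Module.natCard_eq_pow_finrank (K := F)
      rw [e1, e2] at hc
      exact Nat.pow_right_injective (by omega) hc
    · -- two orthogonal components
      obtain ⟨w, hwK, hw, hvw'⟩ : ∃ w, InK z w ∧ w ≠ 0 ∧ ¬ Rel z v w := by
        by_cases h : Rel z v v₀
        · exact ⟨w₀, hw₀K, hw₀, fun h' => hvw (rel_trans hvK (rel_symm h) h')⟩
        · exact ⟨v₀, hv₀K, hv₀, h⟩
      have hle : comp v ≤ orthSub (comp w) := fun x hx => mem_orthSub.2 (horthc v w hvK hwK hvw' x hx)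
      have h5 := Submodule.finrank_mono hle
      have h6 := finrank_orthSub (comp w)
      have h7 := hmin (comp w) ⟨w, ⟨hwK, hw⟩, rfl⟩
      omega
    · have := Fintype.ofFinite J
      have h5 : Nat.card X ≤ Nat.card J := Nat.card_image_le (Set.toFinite _)
      refine le_trans (Nat.mul_le_mul_right _ h5) ?_
      have h6 := sum_finrank_le (F := F) (fun T : J => (T : Submodule F V))
        (fun T => by
          obtain ⟨u, ⟨hu, -⟩, e⟩ := T.2.1
          show IsND (T : Submodule F V)
          rw [← e]; exact hndc u hu)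
        (fun T T' hne x hx y hy => by
          obtain ⟨u, ⟨hu, -⟩, e⟩ := T.2.1
          obtain ⟨u', ⟨hu', -⟩, e'⟩ := T'.2.1
          by_cases hr : Rel z u u'
          · exact absurd (Subtype.ext (e.symm.trans ((hequiv u u' hu hu' hr).trans e'))) hne
          · exact horthc u u' hu hu' hr x (e ▸ hx) y (e' ▸ hy))
      rwa [Finset.sum_congr rfl (fun (T : J) _ => T.2.2), Finset.sum_const, Finset.card_univ,
        smul_eq_mul, ← Nat.card_eq_fintype_card] at h6
  · -- the span is a proper kept subspace
    have hSne : S ≠ ⊥ := fun e => ha (by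
      have : a ∈ S := Submodule.subset_span haK
      rwa [e, Submodule.mem_bot] at this)
    by_cases hR : S ⊓ orthSub S = ⊥
    · have hnd : ∀ T : Submodule F V, T ⊓ orthSub T = ⊥ → IsND T := fun T hT x hx h => by
        have : x ∈ T ⊓ orthSub T := ⟨hx, mem_orthSub.2 h⟩
        rwa [hT, Submodule.mem_bot] at this
      by_cases hd : finrank F S ≤ m
      · refine nd_contra hq hsmall z S (hnd S hR) hSne _ (hfix S hstab) rfl hd ?_
        rw [Nat.card_unique]; omega
      · have hj := finrank_orthSub S
        refine nd_contra hq hsmall z (orthSub S) (hnd _ (by rw [orth_orth, inf_comm]; exact hR))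
          (fun e => ?_) _ (hfix _ (horth S hstab)) rfl (by omega) (by rw [Nat.card_unique]; omega)
        apply hStop
        rw [← orth_orth S, e, eq_top_iff]
        intro x _
        exact mem_orthSub.2 fun y hy => by rw [(Submodule.mem_bot F).1 hy, form_zero_right]
    · obtain ⟨r, hr, hr0⟩ := (S ⊓ orthSub S).exists_mem_ne_zero_of_ne_bot hR
      refine translates_contra hsmall z (S ⊓ orthSub S) _
        (hfix _ fun g hg x hx => Submodule.mem_inf.2
          ⟨hstab g hg x (Submodule.mem_inf.1 hx).1, horth S hstab g hg x (Submodule.mem_inf.1 hx).2⟩)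
        rfl hr hr0 ?_
      rw [Nat.card_unique, one_mul]
      have := isotropic_mult (R := S ⊓ orthSub S) (fun x hx y hy => mem_orthSub.1 hx.2 y hy.1) hr hr0
      omega

end CfsgLib.MinIndexSympGen
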