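import Cfsg.Agent.Lib.MinIndex.SympGen.Unique
import Cfsg.Agent.Lib.ClassicalLinear.SympPerfect

/-!
In odd characteristic a small action has a transvection group fixing a point: the involution negating
the orthogonal of a hyperbolic pair has a fixed point, on whose line its centraliser acts by
translations.
-/

set_option autoImplicit false
set_option linter.unusedSectionVars false

namespace CfsgLib.MinIndexSympGen

open CfsgLib.ClassicalLinear CfsgLib.MinIndexOrth MulAction Module
open scoped Pointwise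

universe u

variable {F : Type u} [Field F] [Finite F] {m : ℕ}

local notation "V" => (Fin m ⊕ Fin m → F)
local notation "Sp" => Matrix.symplecticGroup (Fin m) F
local notation "ω" => Cfsg.sympForm m F
local notation "q" => Nat.card F

/-- Halving inside a subgroup, in odd characteristic. -/
lemma half_mem (h2 : (2 : F) ≠ 0) {M : Type*} [AddCommGroup M] [Module F M] {A : AddSubgroup M} {x : M}
    (h : x + x ∈ A) : x ∈ A := by
  obtain ⟨p, hp⟩ := CharP.exists F
  have hpp : p.Prime := CharP.char_is_prime F p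
  obtain ⟨k, rfl⟩ : Odd p := hpp.odd_of_ne_two fun e => h2 (by subst e; exact CharTwo.two_eq_zero)
  have hx : ((k + 1) * 2 : ℕ) • x = x := by
    rw [← Nat.cast_smul_eq_nsmul F, show ((k + 1) * 2 : ℕ) = (2 * k + 1) + 1 by ring, Nat.cast_add,
      CharP.cast_eq_zero, zero_add, Nat.cast_one, one_smul]
  rw [← hx, mul_smul, two_nsmul]
  exact A.nsmul_mem h _

/-- A vector paired with two given ones, orthogonal to a pair. -/
lemma exists_nbr {a b u u' : V} (hu : ∀ κ r : F, u ≠ κ • a + r • b) (hu' : ∀ κ r : F, u' ≠ κ • a + r • b) :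
    ∃ p : V, ω p a = 0 ∧ ω p b = 0 ∧ ω u p ≠ 0 ∧ ω u' p ≠ 0 := by
  obtain ⟨p₁, h1a, h1b, h1u⟩ := exists_perp_two hu (1 : F)
  obtain ⟨p₂, h2a, h2b, h2u⟩ := exists_perp_two hu' (1 : F)
  have e1 : ω u p₁ = -1 := by rw [sympForm_skew, h1u]
  have e2 : ω u' p₂ = -1 := by rw [sympForm_skew, h2u]
  by_cases c1 : ω u' p₁ = 0
  · by_cases c2 : ω u p₂ = 0
    · refine ⟨p₁ + p₂, by rw [sympForm_add_left, h1a, h2a, add_zero],
        by rw [sympForm_add_left, h1b, h2b, add_zero], ?_, ?_⟩
      · rw [sympForm_add_right, e1, c2]; simp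
      · rw [sympForm_add_right, e2, c1]; simp
    · exact ⟨p₂, h2a, h2b, c2, by rw [e2]; simp⟩
  · exact ⟨p₁, h1a, h1b, by rw [e1]; simp, c1⟩

/-- The stabiliser of a pair is transitive on the vectors orthogonal to it. -/
lemma exists_move_pair {a b u u' : V} (hua : ω u a = 0) (hub : ω u b = 0) (hua' : ω u' a = 0)
    (hub' : ω u' b = 0) (hu : ∀ κ r : F, u ≠ κ • a + r • b) (hu' : ∀ κ r : F, u' ≠ κ • a + r • b) :
    ∃ l : Sp, l • a = a ∧ l • b = b ∧ l • u = u' := by
  have step : ∀ x y : V, ω x a = 0 → ω x b = 0 → ω y a = 0 → ω y b = 0 → ω x y ≠ 0 →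
      ∃ l : Sp, l • a = a ∧ l • b = b ∧ l • x = y := by
    intro x y hxa hxb hya hyb hxy
    refine ⟨spT (y - x) (ω x y)⁻¹, ?_, ?_, ?_⟩ <;> rw [spT_smul, sympForm_sub_right]
    · rw [form_comm.1 hxa, form_comm.1 hya, sub_zero, mul_zero, zero_smul, add_zero]
    · rw [form_comm.1 hxb, form_comm.1 hyb, sub_zero, mul_zero, zero_smul, add_zero]
    · rw [sympForm_self, sub_zero, inv_mul_cancel₀ hxy, one_smul, add_sub_cancel]
  obtain ⟨p, hpa, hpb, hp, hp'⟩ := exists_nbr hu hu'
  obtain ⟨l₁, a1, b1, x1⟩ := step u p hua hub hpa hpb hp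
  obtain ⟨l₂, a2, b2, x2⟩ := step p u' hpa hpb hua' hub' (fun h => hp' (form_comm.1 h))
  exact ⟨l₂ * l₁, by rw [mul_smul, a1, a2], by rw [mul_smul, b1, b2], by rw [mul_smul, x1, x2]⟩

/-- The involution fixing a pair and negating its orthogonal. -/
lemma exists_negation {a b : V} (hba : ω b a = 1) :
    ∃ g : Sp, ∀ x : V, g • x = -x + (2 * ω x a) • b + (-2 * ω x b) • a := by
  have hab : ω a b = -1 := by rw [sympForm_skew, hba]
  let L : V →ₗ[F] V :=
    { toFun := fun x => -x + (2 * ω x a) • b + (-2 * ω x b) • a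
      map_add' := fun x y => by
        simp only [sympForm_add_left, mul_add, add_smul, neg_add]; abel
      map_smul' := fun r x => by
        simp only [sympForm_smul_left, RingHom.id_apply, smul_add, smul_smul, smul_neg]
        congr 2 <;> ring_nf }
  have hL : ∀ x, L (L x) = x := by
    intro x
    show -(-x + _ + _) + (2 * ω (-x + _ + _) a) • b + (-2 * ω (-x + _ + _) b) • a = x
    simp only [sympForm_add_left, sympForm_smul_left, form_neg_left, sympForm_self, hba, hab]
    module
  let e : V ≃ₗ[F] V := { L with invFun := L, left_inv := hL, right_inv := hL }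
  have he : ∀ u v, ω (e u) (e v) = ω u v := by
    intro u v
    show ω (-u + _ + _) (-v + _ + _) = _
    simp only [sympForm_add_left, sympForm_add_right, sympForm_smul_left, sympForm_smul_right,
      form_neg_left, form_neg_right, sympForm_self, hba, hab, sympForm_skew a v, sympForm_skew b v]
    ring
  exact ⟨Forms.spOfEquiv e he, fun x => by rw [sp_smul_eq, Forms.spOfEquiv_mulVec]; rfl⟩

variable {Ω : Type*} [MulAction (Matrix.symplecticGroup (Fin m) F) Ω] [Finite Ω]
variable (S : Setup F m Ω)
include S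

/-- In odd characteristic every action is too large. -/
theorem odd_false (h2 : (2 : F) ≠ 0) {a : V} (ha : a ≠ 0) (z : Ω) : False := by
  classical
  have h1 := not_T1_of_odd S h2 ha z
  obtain ⟨Q, hQ, hQ', hQ2⟩ := S.qQ
  have hq := S.three_le
  -- the second vector, a condition describing the elements keeping the projection
  obtain ⟨w, hwa, hwne, hkeep, hq3⟩ : ∃ w : V, ω w a = 0 ∧ (∀ r : F, w ≠ r • a) ∧
      (∀ l : Sp, l • a = a → (∃ r : F, r ≠ 0 ∧ l • w = r • w) → l • az a z = az a z) ∧
      (q = 3 → IsT0 a z) := by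
    by_cases h0 : IsT0 a z
    · obtain ⟨w, hw, hwne⟩ : ∃ w, ω w a = 0 ∧ ∀ r : F, w ≠ r • a := by
        by_contra hc2
        push Not at hc2
        have hle : perpGrp a ≤ lineGrp a := fun x hx => by
          obtain ⟨r, hr⟩ := hc2 x hx
          exact ⟨r, hr.symm⟩
        have := AddSubgroup.card_le_of_le hle
        rw [card_perpGrp S ha, card_lineGrp ha, hQ'] at this
        have := Nat.mul_le_mul_left q hQ2
        nlinarith
      refine ⟨w, hw, hwne, fun l hl _ => ?_, fun _ => h0⟩
      rw [show az a z = lineGrp a from h0]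
      refine AddSubgroup.ext fun v => ?_
      rw [mem_smul_iff, mem_lineGrp, mem_lineGrp]
      refine exists_congr fun κ => ⟨fun h => ?_, fun h => ?_⟩
      · rw [← smul_inv_smul l v, ← h, smul_comm, hl]
      · rw [← h, smul_comm, inv_smul_eq_iff.2 hl.symm]
    · obtain ⟨v, ⟨hvne, hva, hA⟩, -, hD⟩ := classify S ha z h0 h1
      refine ⟨v, hva, hvne, fun l hl hlv => ?_, fun h3 => ?_⟩
      · obtain ⟨r, hr, hlv⟩ := hlv
        refine AddSubgroup.ext fun x => ?_
        rw [mem_smul_iff, hA, hA, ← sympForm_smul l (l⁻¹ • x) a, ← sympForm_smul l (l⁻¹ • x) v,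
          smul_inv_smul, hl, hlv, sympForm_smul_right, mul_eq_zero]
        simp [hr]
      · exfalso
        refine S.exc ⟨?_, h3⟩
        by_contra hm
        have hm3 : 3 ≤ m := by have := S.two_le; omega
        have h5 := card_az_le_dual h2 (S.moved a ha z)
        rw [hD] at h5
        have h6 := card_mul_dual (az a z)
        rw [hD, hQ] at h6
        have h7 : q ^ 4 ≤ Q := hQ' ▸ Nat.pow_le_pow_right Nat.card_pos (by omega)
        have h8 : Nat.card (az a z) = Q :=
          Nat.eq_of_mul_eq_mul_right (show 0 < q * q by nlinarith) (h6.trans (by ring))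
        rw [h8] at h5
        rw [h3] at h7 h5
        omega
  obtain ⟨b, hba, hbw⟩ := exists_values hwne ha (1 : F) 0
  have hwb : ω w b = 0 := form_comm.1 hbw
  have hab : ω a b = -1 := by rw [sympForm_skew, hba]
  obtain ⟨g, hg⟩ := exists_negation (b := b) hba
  have hga : g • a = a := by rw [hg, sympForm_self, hab]; module
  have hgb : g • b = b := by rw [hg, sympForm_self, hba]; module
  have hgy : ∀ y : V, ω y a = 0 → ω y b = 0 → g • y = -y := fun y h h' => by rw [hg, h, h']; module
  have hgA : g • az a z = az a z :=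
    hkeep g hga ⟨-1, neg_ne_zero.2 one_ne_zero, by rw [hgy w hwa hwb, neg_one_smul]⟩
  have norm : ∀ (zz : Ω) (l : Sp) (y : V) (c : F), ω y a = 0 → l • zz = el a y c • zz →
      ∃ y' c', ω y' a = 0 ∧ ω y' b = 0 ∧ l • zz = el a y' c' • zz := fun zz l y c hy h =>
    ⟨y + ω y b • a, c - 2 * ω y b, by rw [sympForm_add_left, sympForm_smul_left, sympForm_self, hy]; ring,
      by rw [sympForm_add_left, sympForm_smul_left, hab]; ring,
      by rw [el_add_fst hy, h, show c - 2 * ω y b + 2 * ω y b = c by ring]⟩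
  -- a point fixed by the involution
  obtain ⟨z', hgz, hA', hC'⟩ : ∃ z' : Ω, g • z' = z' ∧ az a z' = az a z ∧ cz a z' = cz a z := by
    obtain ⟨y₀, c₀, hy₀, hyz₀⟩ := exists_el_eq S ha h1 hga hgA
    obtain ⟨y, c, hya, hyb, hyz⟩ := norm z g y₀ c₀ hy₀ hyz₀
    set v := (2 : F)⁻¹ • y with hv
    have hva : ω v a = 0 := by rw [hv, sympForm_smul_left, hya, mul_zero]
    have hvb : ω v b = 0 := by rw [hv, sympForm_smul_left, hyb, mul_zero]
    have hv2 : v + v = y := by rw [hv, ← add_smul, ← two_mul, mul_inv_cancel₀ h2, one_smul]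
    refine ⟨el a v 0 • z, ?_, (invariants_uGrp z ⟨_, el_mem_uGrp hva 0⟩).1,
      (invariants_uGrp z ⟨_, el_mem_uGrp hva 0⟩).2⟩
    have e : g * el a v 0 = el a (-v) 0 * g := by
      have := el_conj g a v (0 : F)
      rw [hga, hgy v hva hvb] at this
      exact mul_inv_eq_iff_eq_mul.1 this
    have h3 : g • el a v 0 • z = spT a c • el a v 0 • z := by
      rw [← mul_smul g, e, mul_smul, hyz, ← mul_smul, el_mul (by rw [form_neg_left, hva, neg_zero]) hya,
        ← mul_smul (spT a c), ← el_split' hva]
      congr 2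
      · rw [← hv2]; abel
      · rw [← hv2]
        simp [sympForm_add_left, form_neg_right, sympForm_self]
    have hgc : g * spT a c = spT a c * g := by
      have := conj_spT g a c
      rw [hga] at this
      exact mul_inv_eq_iff_eq_mul.1 this
    have hg2 : g * g = 1 := sp_ext fun x => by
      rw [mul_smul, hg (g • x), hg x, one_smul]
      simp only [sympForm_add_left, sympForm_smul_left, form_neg_left, sympForm_self, hba, hab]
      module
    have h4 : c + c ∈ cz a (el a v 0 • z) := by
      rw [mem_cz, ← spT_add, mul_smul]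
      have h5 : g • g • el a v 0 • z = el a v 0 • z := by rw [← mul_smul g g, hg2, one_smul]
      rw [h3, ← mul_smul g, hgc, mul_smul, h3] at h5
      exact h5
    rw [h3]
    exact mem_cz.1 (half_mem h2 h4)
  have h1' : ¬ IsT1 a z' := fun h => h1 (by rw [IsT1, ← hA']; exact h)
  have hA0 : ∀ x ∈ az a z', ω x b = 0 → el a x 0 • z' = z' := by
    rintro x ⟨hx, c, hc⟩ hxb
    have h3 := el_fix_conj hga hc
    rw [hgy x hx hxb, hgz] at h3
    have h4 : el a x c • el a (-x) c • z' = z' := by rw [h3, hc]
    rw [← mul_smul, el_mul hx (by rw [form_neg_left, hx, neg_zero]), add_neg_cancel, el_zero,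
      form_neg_left, sympForm_self, neg_zero, add_zero] at h4
    have h5 : c ∈ cz a z' := half_mem h2 (show c + c ∈ cz a z' from h4)
    exact (el_fix_iff hx hc).2 (by rw [zero_sub]; exact neg_mem h5)
  -- the centraliser translates
  have trans' : ∀ l : Sp, l • a = a → l • b = b → l • az a z = az a z → ∃ c, l • z' = spT a c • z' := by
    intro l hla hlb hlA
    obtain ⟨y₀, c₀, hy₀, hyz₀⟩ := exists_el_eq S ha h1' hla (by rw [hA']; exact hlA)
    obtain ⟨y, c, hya, hyb, hyz⟩ := norm z' l y₀ c₀ hy₀ hyz₀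
    have hcomm : g * l = l * g := sp_ext fun x => by
      have e1 : ω (l • x) a = ω x a := by conv_lhs => rw [← hla, sympForm_smul]
      have e2 : ω (l • x) b = ω x b := by conv_lhs => rw [← hlb, sympForm_smul]
      rw [mul_smul, mul_smul, hg, hg, e1, e2, smul_add, smul_add, smul_neg, smul_comm l _ b,
        smul_comm l _ a, hla, hlb]
    have e : g * el a y c = el a (-y) c * g := by
      have := el_conj g a y c
      rw [hga, hgy y hya hyb] at this
      exact mul_inv_eq_iff_eq_mul.1 this
    have h3 : el a (-y) c • z' = el a y c • z' := by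
      rw [← hyz]
      conv_lhs => rw [← hgz, ← mul_smul, ← e, mul_smul, ← hyz, ← mul_smul, hcomm, mul_smul, hgz]
    have hny : ω (-y) a = 0 := by rw [form_neg_left, hya, neg_zero]
    have h4 : (el a (-y) c)⁻¹ • el a y c • z' = z' := by rw [← h3, inv_smul_smul]
    rw [el_inv hny, neg_neg, ← mul_smul, el_mul hya hya] at h4
    have hy : y ∈ az a z' :=
      half_mem h2 (show y + y ∈ az a z' from ⟨by rw [sympForm_add_left, hya, add_zero], _, h4⟩)
    exact ⟨c, by rw [hyz, el_split' hya, mul_smul, hA0 y hy hyb]⟩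
  have commA : ∀ l : Sp, l • a = a → ∀ c : F, l * spT a c = spT a c * l := fun l hl c => by
    have := conj_spT l a c
    rw [hl] at this
    exact mul_inv_eq_iff_eq_mul.1 this
  have hw0 : w ≠ 0 := fun e => hwne 0 (by rw [e, zero_smul])
  have hspan : ∀ u : V, u ≠ 0 → ω u a = 0 → ω u b = 0 → ∀ κ r : F, u ≠ κ • a + r • b := by
    intro u hu0 hua hub κ r e
    have hr : r = 0 := by
      have := hua
      rw [e, sympForm_add_left, sympForm_smul_left, sympForm_smul_left, sympForm_self, hba] at this
      linear_combination this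
    have hκ : κ = 0 := by
      have := hub
      rw [e, sympForm_add_left, sympForm_smul_left, sympForm_smul_left, sympForm_self, hab] at this
      linear_combination -this
    exact hu0 (by rw [e, hr, hκ, zero_smul, zero_smul, add_zero])
  have hTfix : ∀ u : V, ω u a = 0 → ω u b = 0 → ∀ e : F, spT u e • a = a ∧ spT u e • b = b :=
    fun u hua hub e => ⟨by rw [spT_smul, form_comm.1 hua]; simp, by rw [spT_smul, form_comm.1 hub]; simp⟩
  have hTw : ∀ e : F, ∃ c, spT w e • z' = spT a c • z' := fun e =>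
    trans' _ (hTfix w hwa hwb e).1 (hTfix w hwa hwb e).2
      (hkeep _ (hTfix w hwa hwb e).1 ⟨1, one_ne_zero, by rw [spT_smul, sympForm_self]; simp⟩)
  refine S.moved w hw0 z' (eq_top_iff.2 fun e _ => ?_)
  by_cases h5 : ∃ μ : F, μ ≠ 0 ∧ μ ^ 2 ≠ 1
  · obtain ⟨μ, hμ, hμ2⟩ := h5
    obtain ⟨τ, hτa, hτb, hτw⟩ := exists_move_pair (a := a) (b := b) (u := w) (u' := μ • w) hwa hwb
      (by rw [sympForm_smul_left, hwa, mul_zero]) (by rw [sympForm_smul_left, hwb, mul_zero])
      (hspan w hw0 hwa hwb) (hspan _ (smul_ne_zero hμ hw0) (by rw [sympForm_smul_left, hwa, mul_zero])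
        (by rw [sympForm_smul_left, hwb, mul_zero]))
    obtain ⟨s, hs⟩ := trans' τ hτa hτb (hkeep τ hτa ⟨μ, hμ, hτw⟩)
    set d := e / (μ ^ 2 - 1)
    obtain ⟨c, hc⟩ := hTw d
    have hne : μ ^ 2 - 1 ≠ 0 := sub_ne_zero.2 hμ2
    have h6 : spT w (μ ^ 2 * d) • z' = spT a c • z' := by
      rw [← spT_smul_vec, ← hτw, ← conj_spT, mul_smul, mul_smul]
      have hsi : τ⁻¹ • z' = spT a (-s) • z' := by
        rw [inv_smul_eq_iff, ← mul_smul, commA τ hτa, mul_smul, hs, ← mul_smul, spT_add,
          neg_add_cancel, spT_zero, one_smul]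
      rw [hsi, ← mul_smul (spT w d), commA _ (hTfix w hwa hwb d).1, mul_smul, hc, ← mul_smul τ,
        commA τ hτa, mul_smul, ← mul_smul τ, commA τ hτa, mul_smul, hs, ← mul_smul, spT_add,
        ← mul_smul, spT_add]
      congr 2; ring
    rw [show μ ^ 2 * d = e + d by simp only [d]; field_simp; ring, ← spT_add, mul_smul, hc,
      ← mul_smul, commA _ (hTfix w hwa hwb e).1, mul_smul, smul_left_cancel_iff] at h6
    exact h6
  · -- three elements
    push Not at h5
    have hq3' : q = 3 := by
      have := Fintype.ofFinite F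
      have hle : (Finset.univ : Finset F) ⊆ {0, 1, -1} := fun x _ => by
        simp only [Finset.mem_insert, Finset.mem_singleton]
        by_cases hx : x = 0
        · exact Or.inl hx
        · rcases sq_eq_one_iff.1 (h5 x hx) with h | h
          · exact Or.inr (Or.inl h)
          · exact Or.inr (Or.inr h)
      have := (Finset.card_le_card hle).trans Finset.card_le_three
      rw [Finset.card_univ, ← Nat.card_eq_fintype_card] at this
      omega
    have h0 := hq3 hq3'
    have hline : ∀ l : Sp, l • a = a → l • az a z = az a z := fun l hl => by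
      rw [show az a z = lineGrp a from h0]
      refine AddSubgroup.ext fun v => ?_
      rw [mem_smul_iff, mem_lineGrp, mem_lineGrp]
      refine exists_congr fun κ => ⟨fun h => ?_, fun h => ?_⟩
      · rw [← smul_inv_smul l v, ← h, smul_comm, hl]
      · rw [← h, smul_comm, inv_smul_eq_iff.2 hl.symm]
    obtain ⟨κ₁, hκ₁⟩ := hTw 1
    -- all transvections of the orthogonal translate alike
    have alike : ∀ u : V, u ≠ 0 → ω u a = 0 → ω u b = 0 → spT u (1 : F) • z' = spT a κ₁ • z' := by
      intro u hu0 hua hub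
      obtain ⟨τ, hτa, hτb, hτu⟩ := exists_move_pair hwa hwb hua hub (hspan w hw0 hwa hwb)
        (hspan u hu0 hua hub)
      obtain ⟨s, hs⟩ := trans' τ hτa hτb (hline τ hτa)
      have hsi : τ⁻¹ • z' = spT a (-s) • z' := by
        rw [inv_smul_eq_iff, ← mul_smul, commA τ hτa, mul_smul, hs, ← mul_smul, spT_add,
          neg_add_cancel, spT_zero, one_smul]
      rw [← hτu, ← conj_spT, mul_smul, mul_smul, hsi, ← mul_smul (spT w (1 : F)),
        commA _ (hTfix w hwa hwb 1).1, mul_smul, hκ₁, ← mul_smul τ,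
        commA τ hτa, mul_smul, ← mul_smul τ, commA τ hτa, mul_smul, hs, ← mul_smul, spT_add,
        ← mul_smul, spT_add]
      congr 2; ring
    have hm3 : 3 ≤ m := by
      have := S.two_le
      by_contra hc
      exact S.exc ⟨by omega, hq3'⟩
    obtain ⟨x, hxa, hxb, hxw, hxne⟩ : ∃ x : V, ω x a = 0 ∧ ω x b = 0 ∧ ω x w = 0 ∧ ∀ r : F, x ≠ r • w := by
      let φ : V →ₗ[F] F × F × F :=
        { toFun := fun x => (ω x a, ω x b, ω x w)
          map_add' := fun x y => by simp [sympForm_add_left]
          map_smul' := fun r x => by simp [sympForm_smul_left] }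
      by_contra hc
      push Not at hc
      have hle : LinearMap.ker φ ≤ Submodule.span F {w} := fun x hx => by
        have hx' : (ω x a, ω x b, ω x w) = (0, 0, 0) := hx
        simp only [Prod.mk.injEq] at hx'
        obtain ⟨r, hr⟩ := hc x hx'.1 hx'.2.1 hx'.2.2
        exact Submodule.mem_span_singleton.2 ⟨r, hr.symm⟩
      have h6 := Submodule.finrank_mono hle
      rw [finrank_span_singleton hw0] at h6
      have h7 := φ.finrank_range_add_finrank_ker
      have h8 : finrank F (LinearMap.range φ) ≤ 3 := by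
        refine (Submodule.finrank_le _).trans ?_
        simp
      rw [Module.finrank_pi, Fintype.card_sum, Fintype.card_fin] at h7
      omega
    have hx0 : x ≠ 0 := fun e => hxne 0 (by rw [e, zero_smul])
    have hp0 : w + x ≠ 0 := fun e => hxne (-1) (by rw [neg_one_smul]; exact eq_neg_of_add_eq_zero_right e)
    have hm0 : w - x ≠ 0 := fun e => hxne 1 (by rw [one_smul]; exact (sub_eq_zero.1 e).symm)
    have hpa : ω (w + x) a = 0 := by rw [sympForm_add_left, hwa, hxa, add_zero]
    have hpb : ω (w + x) b = 0 := by rw [sympForm_add_left, hwb, hxb, add_zero]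
    have hma : ω (w - x) a = 0 := by rw [form_sub_left, hwa, hxa, sub_zero]
    have hmb : ω (w - x) b = 0 := by rw [form_sub_left, hwb, hxb, sub_zero]
    have hid := congrArg (fun l : Sp => l • z') (spT_pair_identity (form_comm.1 hxw) (1 : F))
    simp only [mul_one] at hid
    have two : ∀ u : V, u ≠ 0 → ω u a = 0 → ω u b = 0 →
        spT u (2 : F) • z' = spT a (κ₁ + κ₁) • z' := by
      intro u hu0 hua hub
      rw [show (2 : F) = 1 + 1 by norm_num, ← spT_add, mul_smul, alike u hu0 hua hub, ← mul_smul,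
        commA _ (hTfix u hua hub 1).1, mul_smul, alike u hu0 hua hub, ← mul_smul, spT_add]
    rw [mul_smul, alike _ hm0 hma hmb, ← mul_smul, commA _ (hTfix _ hpa hpb 1).1, mul_smul,
      alike _ hp0 hpa hpb, ← mul_smul, spT_add, mul_smul, two x hx0 hxa hxb, ← mul_smul,
      commA _ (hTfix w hwa hwb 2).1, mul_smul, two w hw0 hwa hwb, ← mul_smul, spT_add] at hid
    have h9 : κ₁ + κ₁ ∈ cz a z' := by
      rw [mem_cz, ← smul_left_cancel_iff (spT a (κ₁ + κ₁)), ← mul_smul, spT_add]
      exact hid.symm
    have h10 : κ₁ ∈ cz a z' := half_mem h2 h9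
    have h11 : (1 : F) ∈ cz w z' := by
      rw [mem_cz, hκ₁]; exact h10
    have hpr : Fact (Nat.Prime (Nat.card F)) := ⟨by rw [hq3']; norm_num⟩
    rcases AddSubgroup.eq_bot_or_eq_top_of_prime_card (cz w z') with h | h
    · rw [h] at h11; exact absurd h11 one_ne_zero
    · rw [h]; trivial

end CfsgLib.MinIndexSympGen
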