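import Cfsg.Agent.Lib.MinIndex.SympGen.Even
import Cfsg.Agent.Lib.MinIndex.SympGen.Odd
import Cfsg.Agent.Lib.MinIndex.SympGen.Fixed
import Cfsg.Agent.Lib.ClassicalLinear.SympSimple

/-!
The minimal index of a proper subgroup of the symplectic groups over at least three elements.
-/

set_option autoImplicit false
set_option linter.unusedSectionVars false

namespace CfsgLib.MinIndexSympGen

open CfsgLib.ClassicalLinear MulAction
open scoped LinearAlgebra.Projectivization

universe u

variable {F : Type u} [Field F] {m : ℕ}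

local notation "V" => (Fin m ⊕ Fin m → F)
local notation "Sp" => Matrix.symplecticGroup (Fin m) F
local notation "q" => Nat.card F

/-- A proper subgroup of the symplectic group has index at least the number of points. -/
theorem le_index_sp [Finite F] (hm : 2 ≤ m) (hq : 3 ≤ q) (hexc : ¬(m = 2 ∧ q = 3)) (H : Subgroup Sp)
    (hH : H ≠ ⊤) : q ^ (2 * m) - 1 ≤ (q - 1) * H.index := by
  by_contra hlt
  rw [not_le] at hlt
  have : Nontrivial (Sp ⧸ H) := QuotientGroup.nontrivial_iff.2 hH
  have hd : Nat.card (Sp ⧸ H) = H.index := rfl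
  have hsmall : (q - 1) * Nat.card (Sp ⧸ H) + 1 < q ^ (2 * m) := by rw [hd]; omega
  have hnt : ∀ z : Sp ⧸ H, ∃ g : Sp, g • z ≠ z := by
    intro z
    obtain ⟨w, hw⟩ := exists_ne z
    obtain ⟨g, hg⟩ := MulAction.exists_smul_eq Sp z w
    exact ⟨g, hg ▸ hw⟩
  have S : Setup F m (Sp ⧸ H) := ⟨hm, hq, hexc, hsmall, moved_all hq hsmall hnt⟩
  obtain ⟨z⟩ : Nonempty (Sp ⧸ H) := inferInstance
  have ha : (Pi.single (Sum.inl ⟨0, by omega⟩) 1 : V) ≠ 0 := Pi.single_ne_zero_iff.2 one_ne_zero
  by_cases h2 : (2 : F) = 0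
  · exact even_false S h2 ha z
  · exact odd_false S h2 ha z

/-- A proper subgroup of `PSp` has index at least the number of points. -/
theorem le_index_psp [Fintype F] (hm : 2 ≤ m) (hq : 3 ≤ Fintype.card F)
    (hexc : ¬(m = 2 ∧ Fintype.card F = 3)) (H : Subgroup (Cfsg.PSp m F)) (hH : H ≠ ⊤) :
    (Fintype.card F ^ (2 * m) - 1) / (Fintype.card F - 1) ≤ H.index := by
  have hc : q = Fintype.card F := Nat.card_eq_fintype_card
  rw [← hc] at hq hexc ⊢
  have hsurj := QuotientGroup.mk'_surjective (Subgroup.center Sp)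
  rw [← Subgroup.index_comap_of_surjective H hsurj]
  refine Nat.div_le_of_le_mul (le_index_sp hm hq hexc _ fun h => hH ?_)
  rw [← Subgroup.map_comap_eq_self_of_surjective hsurj H, h, ← MonoidHom.range_eq_map,
    MonoidHom.range_eq_top.2 hsurj]

/-- The stabiliser of a point attains the bound. -/
theorem exists_index_psp [Fintype F] (hm : 1 ≤ m) :
    ∃ H : Subgroup (Cfsg.PSp m F), H.index = (Fintype.card F ^ (2 * m) - 1) / (Fintype.card F - 1) := by
  have : IsPretransitive (Cfsg.PSp m F) (ℙ F (Fin m ⊕ Fin m → F)) := by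
    have := sp_pretransitive (F := F) (m := m)
    refine ⟨fun p r => ?_⟩
    obtain ⟨g, hg⟩ := MulAction.exists_smul_eq Sp p r
    exact ⟨(g : Cfsg.PSp m F), by rw [psp_mk_smul, hg]⟩
  let p : ℙ F (Fin m ⊕ Fin m → F) := Projectivization.mk F (Pi.single (Sum.inl ⟨0, hm⟩) 1)
    (Pi.single_ne_zero_iff.2 one_ne_zero)
  refine ⟨MulAction.stabilizer _ p, ?_⟩
  rw [MulAction.index_stabilizer_of_transitive, Projectivization.card'', Nat.card_fun, Nat.card_sum,
    Nat.card_fin, Nat.card_eq_fintype_card, two_mul]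

end CfsgLib.MinIndexSympGen
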