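import Cfsg.Agent.Lib.MinIndex.SympGen.Basic
import Cfsg.Agent.Lib.Forms.SympBridge

/-!
The orbits of totally isotropic and of small non-degenerate subspaces of a symplectic space are at
least as large as the set of points.
-/

set_option autoImplicit false
set_option linter.unusedSectionVars false

namespace CfsgLib.MinIndexSympGen

open CfsgLib.ClassicalLinear MulAction Module
open scoped Pointwise

universe u

variable {F : Type u} [Field F] {m : ℕ}

local notation "V" => (Fin m ⊕ Fin m → F)
local notation "Sp" => Matrix.symplecticGroup (Fin m) F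
local notation "ω" => Cfsg.sympForm m F
local notation "q" => Nat.card F

/-- The orthogonal of a subspace. -/
noncomputable def orthSub (S : Submodule F V) : Submodule F V :=
  LinearMap.BilinForm.orthogonal (Omega.sympBilin m F) S

lemma mem_orthSub {S : Submodule F V} {x : V} : x ∈ orthSub S ↔ ∀ y ∈ S, ω x y = 0 := by
  rw [orthSub, LinearMap.BilinForm.mem_orthogonal_iff]
  refine ⟨fun h y hy => form_comm.1 ?_, fun h y hy => ?_⟩
  · have := h y hy
    rwa [← Omega.sympBilin_apply]
  · show Omega.sympBilin m F y x = 0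
    rw [Omega.sympBilin_apply]; exact form_comm.1 (h y hy)

lemma finrank_orthSub (S : Submodule F V) : finrank F (orthSub S) + finrank F S = 2 * m := by
  have h := LinearMap.BilinForm.finrank_orthogonal (Forms.sympBilin_nondeg m F) S
  have h2 := S.finrank_le
  rw [Module.finrank_pi, Fintype.card_sum, Fintype.card_fin] at h h2
  show finrank F (LinearMap.BilinForm.orthogonal (Omega.sympBilin m F) S) + _ = _
  omega

lemma orth_orth (S : Submodule F V) : orthSub (orthSub S) = S := by
  refine (Submodule.eq_of_le_of_finrank_le (fun x hx => mem_orthSub.2 fun y hy =>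
    form_comm.1 (mem_orthSub.1 hy x hx)) ?_).symm
  have h1 := finrank_orthSub S
  have h2 := finrank_orthSub (orthSub S)
  omega

/-- A subgroup meets its orthogonal trivially. -/
def IsND (S : Submodule F V) : Prop := ∀ x ∈ S, (∀ y ∈ S, ω x y = 0) → x = 0

variable [Finite F] {Ω : Type*} [MulAction (Matrix.symplecticGroup (Fin m) F) Ω] [Finite Ω]

/-- The translates of a subgroup. -/
def translates (A : AddSubgroup V) : Set (AddSubgroup V) := {B | ∃ g : Sp, g • A = B}

/-- Every vector lies in equally many translates. -/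
lemma incidence_translates (A : AddSubgroup V) {a : V} (ha : a ≠ 0) :
    Nat.card (translates A) * (Nat.card A - 1)
      = Nat.card {B : translates A // a ∈ (B : AddSubgroup V)} * (q ^ (2 * m) - 1) := by
  classical
  have := Fintype.ofFinite (translates A)
  have hd : ∀ B : AddSubgroup V, Nat.card B - 1 = Nat.card {x : V // x ∈ B ∧ x ≠ 0} := fun B => by
    have : Fintype V := Fintype.ofFinite V
    rw [Nat.card_eq_fintype_card, Nat.card_eq_fintype_card, Fintype.card_subtype, Fintype.card_subtype,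
      ← Finset.card_erase_of_mem (show (0 : V) ∈ Finset.univ.filter (· ∈ B) by simp)]
    congr 1; ext; simp [and_comm]
  have hc : ∀ B : translates A, Nat.card (B : AddSubgroup V) = Nat.card A := by
    rintro ⟨_, g, rfl⟩
    exact (Nat.card_congr
      { toFun := fun x => ⟨g • (x : V), AddSubgroup.smul_mem_pointwise_smul _ g A x.2⟩
        invFun := fun y => ⟨g⁻¹ • (y : V), mem_smul_iff.1 y.2⟩
        left_inv := fun x => Subtype.ext (inv_smul_smul g (x : V))
        right_inv := fun y => Subtype.ext (smul_inv_smul g (y : V)) }).symm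
  have hl : Nat.card (translates A) * (Nat.card A - 1)
      = Nat.card (Σ B : translates A, {x : V // x ∈ (B : AddSubgroup V) ∧ x ≠ 0}) := by
    rw [Nat.card_sigma, Finset.sum_congr rfl fun (B : translates A) _ => show _ = Nat.card A - 1 by
      rw [← hd, hc], Finset.sum_const, Finset.card_univ, smul_eq_mul, Nat.card_eq_fintype_card]
  have hE : Nat.card {x : V // x ≠ 0} = q ^ (2 * m) - 1 := by
    have : Fintype V := Fintype.ofFinite V
    rw [← card_vectors (F := F) (m := m), Nat.card_eq_fintype_card, Nat.card_eq_fintype_card]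
    simp
  have := Fintype.ofFinite {x : V // x ≠ 0}
  rw [hl, ← hE]
  refine (Nat.card_congr (β := Σ x : {x : V // x ≠ 0}, {B : translates A // (x : V) ∈ (B : AddSubgroup V)})
    { toFun := fun p => ⟨⟨p.2.1, p.2.2.2⟩, p.1, p.2.2.1⟩
      invFun := fun p => ⟨p.2.1, p.1.1, p.2.2, p.1.2⟩
      left_inv := fun _ => rfl
      right_inv := fun _ => rfl }).trans ?_
  rw [Nat.card_sigma, Finset.sum_congr rfl fun (x : {x : V // x ≠ 0}) _ =>
    show Nat.card {B : translates A // (x : V) ∈ (B : AddSubgroup V)}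
      = Nat.card {B : translates A // a ∈ (B : AddSubgroup V)} from ?_,
    Finset.sum_const, Finset.card_univ, smul_eq_mul, Nat.card_eq_fintype_card (α := {x : V // x ≠ 0}),
    mul_comm]
  obtain ⟨g, hg⟩ := exists_sp_smul_eq x.2 ha
  refine Nat.card_congr
    { toFun := fun B => ⟨⟨g • (B.1 : AddSubgroup V), ?_⟩, ?_⟩
      invFun := fun B => ⟨⟨g⁻¹ • (B.1 : AddSubgroup V), ?_⟩, ?_⟩
      left_inv := fun B => Subtype.ext (Subtype.ext (inv_smul_smul g (B.1 : AddSubgroup V)))
      right_inv := fun B => Subtype.ext (Subtype.ext (smul_inv_smul g (B.1 : AddSubgroup V))) }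
  · obtain ⟨h, e⟩ := B.1.2
    exact ⟨g * h, by rw [mul_smul, e]⟩
  · rw [← hg]; exact AddSubgroup.smul_mem_pointwise_smul _ g _ B.2
  · obtain ⟨h, e⟩ := B.1.2
    exact ⟨g⁻¹ * h, by rw [mul_smul, e]⟩
  · show (x : V) ∈ g⁻¹ • (B.1 : AddSubgroup V)
    rw [mem_smul_iff, inv_inv, hg]; exact B.2

/-- If the stabiliser of a point permutes a few subspaces, their orbit is short. -/
lemma card_translates_le [IsPretransitive (Matrix.symplecticGroup (Fin m) F) Ω] (z : Ω)
    (X : Set (AddSubgroup V)) (hX : ∀ g : Sp, g • z = z → ∀ A ∈ X, g • A ∈ X) {A : AddSubgroup V}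
    (hA : A ∈ X) : Nat.card (translates A) ≤ Nat.card Ω * Nat.card X := by
  choose k hk using fun w : Ω => MulAction.exists_smul_eq (Matrix.symplecticGroup (Fin m) F) z w
  let e : Ω × X → AddSubgroup V := fun p => k p.1 • (p.2 : AddSubgroup V)
  have hsub : translates A ⊆ Set.range e := by
    rintro _ ⟨g, rfl⟩
    refine ⟨(g • z, ⟨((k (g • z))⁻¹ * g) • A, hX _ ?_ A hA⟩), ?_⟩
    · rw [mul_smul, inv_smul_eq_iff, hk]
    · show k (g • z) • ((k (g • z))⁻¹ * g) • A = g • A
      rw [smul_smul, mul_inv_cancel_left]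
  calc Nat.card (translates A) ≤ Nat.card (Set.range e) := Nat.card_mono (Set.toFinite _) hsub
    _ ≤ Nat.card (Ω × X) := Finite.card_range_le e
    _ = _ := Nat.card_prod _ _

/-- A totally isotropic subspace has enough translates through one of its vectors. -/
theorem isotropic_mult {R : Submodule F V} (hts : ∀ x ∈ R, ∀ y ∈ R, ω x y = 0) {a : V} (haR : a ∈ R)
    (ha : a ≠ 0) : q ^ finrank F R ≤
      (q - 1) * Nat.card {B : translates R.toAddSubgroup // a ∈ (B : AddSubgroup V)} + 1 := by
  classical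
  let Φ := {φ : Module.Dual F R // φ ⟨a, haR⟩ = 0 ∧ φ ≠ 0}
  let Hyp : Set (Submodule F R) := Set.range fun φ : Φ => LinearMap.ker φ.1
  have data : ∀ K : Hyp, ∃ x r : V, r ∈ R ∧ ω x r = 1 ∧
      (∀ y : R, y ∈ (K : Submodule F R) ↔ ω x y = 0) ∧ ω x a = 0 := by
    rintro ⟨_, ⟨φ, hφa, hφ⟩, rfl⟩
    obtain ⟨ψ, hψ⟩ := LinearMap.exists_extend φ
    obtain ⟨x, hx⟩ : ∃ x : V, ∀ y, ω x y = ψ y := by
      have hinj : Function.Injective (Omega.sympBilin m F) := by
        rw [injective_iff_map_eq_zero]
        exact fun v hv => Omega.sympBilin_nondegenerate v fun w => by rw [hv]; rfl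
      obtain ⟨u, hu⟩ := (LinearMap.injective_iff_surjective_of_finrank_eq_finrank
        Subspace.dual_finrank_eq.symm).mp hinj ψ
      exact ⟨u, fun y => by rw [← Omega.sympBilin_apply, hu]⟩
    have hxy : ∀ y : R, ω x y = φ y := fun y => by rw [hx, ← hψ]; rfl
    obtain ⟨r, hr⟩ : ∃ r : R, φ r ≠ 0 := by
      by_contra hc
      push Not at hc
      exact hφ (LinearMap.ext hc)
    exact ⟨x, (φ r)⁻¹ • (r : V), R.smul_mem _ r.2, by rw [sympForm_smul_right, hxy, inv_mul_cancel₀ hr],
      fun y => by rw [hxy]; exact Iff.rfl, by rw [← hφa, ← hxy]⟩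
  choose x r hr hxr hK hxa using data
  have hrx : ∀ K, ω (r K) (x K) = -1 := fun K => by rw [sympForm_skew, hxr]
  let g : Hyp × Option {c : F // c ≠ 0} → Sp := fun p => p.2.elim
    (spT (r p.1) 1 * spT (x p.1) 1) fun c => spT (x p.1) c
  let M : Hyp × Option {c : F // c ≠ 0} → AddSubgroup V := fun p => g p • R.toAddSubgroup
  have hts' : ∀ p, ∀ u ∈ M p, ∀ v ∈ M p, ω u v = 0 := fun p u hu v hv => by
    have := hts _ (mem_smul_iff.1 hu) _ (mem_smul_iff.1 hv)
    rwa [sympForm_smul] at this
  -- the special vector of each translate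
  let sv : Hyp × Option {c : F // c ≠ 0} → V := fun p => p.2.elim (x p.1) fun c => r p.1 - (c : F) • x p.1
  have hsv : ∀ p, sv p ∈ M p := by
    rintro ⟨K, _ | c⟩
    · have h : (spT (r K) 1 * spT (x K) 1) • r K = -x K := by
        rw [mul_smul, spT_smul (x K), hrx, spT_smul]
        simp only [sympForm_add_left, sympForm_smul_left, sympForm_self, hxr]
        module
      show x K ∈ g (K, none) • R.toAddSubgroup
      rw [← neg_neg (x K), ← h]
      exact neg_mem (AddSubgroup.smul_mem_pointwise_smul (r K) _ R.toAddSubgroup (hr K))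
    · have h : spT (x K) (c : F) • r K = r K - (c : F) • x K := by rw [spT_smul, hrx]; module
      show r K - (c : F) • x K ∈ g (K, some c) • R.toAddSubgroup
      rw [← h]
      exact AddSubgroup.smul_mem_pointwise_smul (r K) _ R.toAddSubgroup (hr K)
  have hfix : ∀ p (y : R), ω (x p.1) y = 0 → g p • (y : V) = y := by
    rintro ⟨K, _ | c⟩ y hy
    · show (spT (r K) 1 * spT (x K) 1) • (y : V) = y
      have hy' : ω (y : V) (x K) = 0 := form_comm.1 hy
      rw [mul_smul, spT_smul (x K), hy', mul_zero, zero_smul, add_zero, spT_smul,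
        hts _ y.2 _ (hr K), mul_zero, zero_smul, add_zero]
    · show spT (x K) (c : F) • (y : V) = y
      have hy' : ω (y : V) (x K) = 0 := form_comm.1 hy
      rw [spT_smul, hy', mul_zero, zero_smul, add_zero]
  have haM : ∀ p, a ∈ M p := fun p => by
    have := AddSubgroup.smul_mem_pointwise_smul a (g p) R.toAddSubgroup haR
    rwa [show g p • a = a from hfix p ⟨a, haR⟩ (hxa p.1)] at this
  have hcap : ∀ p (y : R), (y : V) ∈ M p ↔ y ∈ (p.1 : Submodule F R) := by
    intro p y
    rw [hK]
    refine ⟨fun hy => ?_, fun hy => ?_⟩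
    · have := hts' p _ hy _ (hsv p)
      obtain ⟨K, _ | c⟩ := p
      · exact form_comm.1 this
      · change ω (y : V) (r K - (c : F) • x K) = 0 at this
        rw [sympForm_sub_right, sympForm_smul_right, hts _ y.2 _ (hr K), zero_sub, neg_eq_zero,
          mul_eq_zero] at this
        exact form_comm.1 (this.resolve_left c.2)
    · rw [← hfix p y hy]
      exact AddSubgroup.smul_mem_pointwise_smul _ _ R.toAddSubgroup y.2
  have hMR : ∀ p, M p ≠ R.toAddSubgroup := by
    intro p he
    have hKtop : ∀ y : R, y ∈ (p.1 : Submodule F R) := fun y => (hcap p y).1 (he.ge y.2)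
    have := (hK p.1 ⟨r p.1, hr p.1⟩).1 (hKtop _)
    rw [hxr] at this
    exact one_ne_zero this
  have hinj : Function.Injective M := by
    intro p p' he
    have hKK : p.1 = p'.1 := Subtype.ext (Submodule.ext fun y => by rw [← hcap, ← hcap, he])
    obtain ⟨K, o⟩ := p
    obtain ⟨K', o'⟩ := p'
    obtain rfl : K = K' := hKK
    have hp' : sv (K, o') ∈ M (K, o) := he.symm ▸ hsv (K, o')
    have h1 := hts' (K, o) _ (hsv (K, o)) _ hp'
    rcases o with _ | c <;> rcases o' with _ | c' <;>
      simp only [sv, Option.elim, sympForm_sub_right, form_sub_left, sympForm_smul_left,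
        sympForm_smul_right, sympForm_self, hrx, hxr] at h1
    · rfl
    · exact absurd (show (1 : F) = 0 by linear_combination h1) one_ne_zero
    · exact absurd (show (1 : F) = 0 by linear_combination -h1) one_ne_zero
    · have hcc : (c : F) = c' := by linear_combination -h1
      rw [Subtype.ext hcc]
  set μ := Nat.card {B : translates R.toAddSubgroup // a ∈ (B : AddSubgroup V)}
  have hμ : Nat.card Hyp * q + 1 ≤ μ := by
    have hc : Nat.card (Option {c : F // c ≠ 0}) = q := by
      have := Fintype.ofFinite F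
      rw [Nat.card_eq_fintype_card, Nat.card_eq_fintype_card, Fintype.card_option]
      have := Fintype.one_lt_card (α := F)
      simp only [ne_eq, Fintype.card_subtype_compl, Fintype.card_subtype_eq]
      omega
    rw [← hc, ← Nat.card_prod, ← (Nat.card_unique : Nat.card Unit = 1), ← Nat.card_sum]
    refine Nat.card_le_card_of_injective (Sum.elim (fun p => ⟨⟨M p, g p, rfl⟩, haM p⟩)
      (fun _ => ⟨⟨R.toAddSubgroup, 1, one_smul _ _⟩, haR⟩)) ?_
    rintro (p | p) (p' | p') h <;> simp only [Sum.elim_inl, Sum.elim_inr, Subtype.mk.injEq] at h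
    · exact congrArg Sum.inl (hinj (congrArg Subtype.val h))
    · exact absurd (congrArg Subtype.val h) (hMR p)
    · exact absurd (congrArg Subtype.val h).symm (hMR p')
    · rfl
  have hDual : Nat.card (Module.Dual F R) = q ^ finrank F R := by
    rw [Module.natCard_eq_pow_finrank (K := F), Subspace.dual_finrank_eq]
  have hker : Nat.card {φ : Module.Dual F R // φ ⟨a, haR⟩ = 0} * q = q ^ finrank F R := by
    let ev : Module.Dual F R →ₗ[F] F := LinearMap.applyₗ (⟨a, haR⟩ : R)
    have hsurj : Function.Surjective ev := by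
      rcases eq_or_ne ev 0 with h | h
      · exfalso
        refine ha (congrArg Subtype.val ((Module.forall_dual_apply_eq_zero_iff F (⟨a, haR⟩ : R)).1 fun φ => ?_))
        exact DFunLike.congr_fun h φ
      · exact LinearMap.surjective h
    have h1 := (ev.toAddMonoidHom.ker).card_mul_index
    rw [AddSubgroup.index_ker, hDual] at h1
    rw [AddMonoidHom.range_eq_top.2 hsurj, AddSubgroup.card_top] at h1
    exact h1
  have hΦ : Nat.card Φ + 1 = Nat.card {φ : Module.Dual F R // φ ⟨a, haR⟩ = 0} := by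
    have : Finite (Module.Dual F R) := Finite.of_injective _ DFunLike.coe_injective
    rw [← (Nat.card_unique : Nat.card Unit = 1), ← Nat.card_sum]
    refine Nat.card_eq_of_bijective (Sum.elim (fun φ : Φ => ⟨φ.1, φ.2.1⟩) fun _ => ⟨0, rfl⟩) ⟨?_, fun φ => ?_⟩
    · rintro (p | p) (p' | p') h <;> simp only [Sum.elim_inl, Sum.elim_inr, Subtype.mk.injEq] at h
      · exact congrArg Sum.inl (Subtype.ext h)
      · exact absurd h p.2.2
      · exact absurd h.symm p'.2.2
      · rfl
    · by_cases h : φ.1 = 0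
      · exact ⟨Sum.inr (), Subtype.ext h.symm⟩
      · exact ⟨Sum.inl ⟨φ.1, φ.2, h⟩, rfl⟩
  have hfib : Nat.card Φ ≤ Nat.card Hyp * (q - 1) := by
    have hne : Nat.card {c : F // c ≠ 0} = q - 1 := by
      have := Fintype.ofFinite F
      simp [Nat.card_eq_fintype_card]
    rw [← hne, ← Nat.card_prod]
    let KK : Φ → Hyp := fun φ => ⟨LinearMap.ker φ.1, φ, rfl⟩
    have hval : ∀ φ : Φ, φ.1 ⟨r (KK φ), hr _⟩ ≠ 0 := fun φ h => by
      have := (hK (KK φ) ⟨r (KK φ), hr _⟩).1 h
      rw [hxr] at this
      exact one_ne_zero this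
    refine Nat.card_le_card_of_injective (fun φ => (KK φ, (⟨_, hval φ⟩ : {c : F // c ≠ 0}))) fun φ ψ h => ?_
    simp only [Prod.mk.injEq, Subtype.mk.injEq] at h
    obtain ⟨h1, h2⟩ := h
    refine Subtype.ext (LinearMap.ext fun y => ?_)
    set rr : R := ⟨r (KK φ), hr _⟩ with hrr
    have h2' : φ.1 rr = ψ.1 rr := by rw [h2]; congr 1; exact Subtype.ext (by rw [hrr, h1])
    have hmem : y - (φ.1 y / φ.1 rr) • rr ∈ LinearMap.ker φ.1 := by
      rw [LinearMap.mem_ker, map_sub, map_smul, smul_eq_mul, div_mul_cancel₀ _ (hval φ), sub_self]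
    rw [show LinearMap.ker φ.1 = LinearMap.ker ψ.1 from congrArg Subtype.val h1, LinearMap.mem_ker,
      map_sub, map_smul, smul_eq_mul, ← h2', div_mul_cancel₀ _ (hval φ), sub_eq_zero] at hmem
    exact hmem.symm
  have h5 := Nat.mul_le_mul_left (q - 1) hμ
  have h6 := Nat.mul_le_mul_right q hfib
  obtain ⟨q₁, hq₁⟩ : ∃ q₁, q = q₁ + 1 := ⟨q - 1, by have := Nat.card_pos (α := F); omega⟩
  rw [← hΦ] at hker
  rw [← hker]
  rw [hq₁, Nat.add_sub_cancel] at h5 h6 ⊢
  linarith

/-- A non-degenerate subspace has at least as many translates through one of its vectors as its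
orthogonal has vectors. -/
theorem nondeg_mult {S : Submodule F V} (hS : IsND S) {a : V} (haS : a ∈ S) (ha : a ≠ 0) :
    q ^ finrank F (orthSub S) ≤ Nat.card {B : translates S.toAddSubgroup // a ∈ (B : AddSubgroup V)} := by
  obtain ⟨b, hbS, hba⟩ : ∃ b ∈ S, ω b a = 1 := by
    obtain ⟨y, hy, hne⟩ : ∃ y ∈ S, ω a y ≠ 0 := by
      by_contra hc
      push Not at hc
      exact ha (hS a haS hc)
    exact ⟨(ω y a)⁻¹ • y, S.smul_mem _ hy, by
      rw [sympForm_smul_left, inv_mul_cancel₀ fun h => hne (form_comm.1 h)]⟩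
  rw [← Module.natCard_eq_pow_finrank (K := F)]
  have hva : ∀ v : orthSub S, ω (v : V) a = 0 := fun v => mem_orthSub.1 v.2 a haS
  refine Nat.card_le_card_of_injective (fun v : orthSub S =>
    ⟨⟨el a (v : V) 0 • S.toAddSubgroup, el a (v : V) 0, rfl⟩, by
      have h := AddSubgroup.smul_mem_pointwise_smul a (el a (v : V) (0 : F)) S.toAddSubgroup haS
      rwa [el_smul_self (hva v)] at h⟩) fun v w h => ?_
  have he : el a (v : V) 0 • S.toAddSubgroup = el a (w : V) 0 • S.toAddSubgroup :=
    congrArg (fun t : {B : translates S.toAddSubgroup // a ∈ (B : AddSubgroup V)} => (t.1 : AddSubgroup V)) h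
  have hb : ∀ u : orthSub S, el a (u : V) 0 • b = b + (u : V) := fun u => by
    rw [el_apply (hva u), hba, form_comm.1 (mem_orthSub.1 u.2 b hbS)]; module
  have h1 : b + (v : V) ∈ el a (w : V) 0 • S.toAddSubgroup := by
    rw [← he, ← hb v]; exact AddSubgroup.smul_mem_pointwise_smul b _ S.toAddSubgroup hbS
  have h2 : b + (w : V) ∈ el a (w : V) 0 • S.toAddSubgroup := by
    rw [← hb w]; exact AddSubgroup.smul_mem_pointwise_smul b _ S.toAddSubgroup hbS
  have h3 := sub_mem h1 h2
  rw [add_sub_add_left_eq_sub] at h3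
  obtain ⟨y, hy, hye⟩ := (AddSubgroup.mem_smul_pointwise_iff_exists _ _ _).1 h3
  have hyS : ∀ s ∈ S, ω y s = 0 := by
    intro s hs
    have h4 : ω (el a (w : V) 0 • y) s = 0 := by
      rw [hye, form_sub_left, mem_orthSub.1 v.2 s hs, mem_orthSub.1 w.2 s hs, sub_zero]
    rw [el_apply (hva w), form_comm.1 (mem_orthSub.1 w.2 y hy)] at h4
    simpa [sympForm_add_left, sympForm_smul_left, mem_orthSub.1 w.2 s hs] using h4
  have hy0 := hS y hy hyS
  rw [hy0, smul_zero, eq_comm, sub_eq_zero] at hye
  exact Subtype.ext hye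

end CfsgLib.MinIndexSympGen
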