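import Cfsg.Agent.Lib.MinIndex.SympGen.Count

/-!
The projection of the stabiliser of a point in the root group is the point's line, everything, or the
orthogonal of an isotropic line through the point.
-/

set_option autoImplicit false
set_option linter.unusedSectionVars false

namespace CfsgLib.MinIndexSympGen

open CfsgLib.ClassicalLinear CfsgLib.MinIndexOrth MulAction Module
open scoped Pointwise

universe u

variable {F : Type u} [Field F] {m : ℕ}

local notation "V" => (Fin m ⊕ Fin m → F)
local notation "Sp" => Matrix.symplecticGroup (Fin m) F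
local notation "ω" => Cfsg.sympForm m F
local notation "q" => Nat.card F

/-- Every functional is given by the form. -/
lemma exists_form_eq (φ : Module.Dual F V) : ∃ u : V, ∀ x, ω u x = φ x := by
  have hinj : Function.Injective (Omega.sympBilin m F) := by
    rw [injective_iff_map_eq_zero]
    exact fun v hv => Omega.sympBilin_nondegenerate v fun w => by rw [hv]; rfl
  obtain ⟨u, hu⟩ := (LinearMap.injective_iff_surjective_of_finrank_eq_finrank
    Subspace.dual_finrank_eq.symm).mp hinj φ
  exact ⟨u, fun x => by rw [← Omega.sympBilin_apply, hu]⟩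

lemma indep_of_forall_ne {a v : V} (ha : a ≠ 0) (hv : ∀ r : F, v ≠ r • a) :
    LinearIndependent F ![a, v] :=
  (LinearIndependent.pair_iff' ha).2 fun r h => hv r h.symm

/-- A vector outside the span of two others is seen by a vector orthogonal to both. -/
lemma exists_perp_two {a v x : V} (h : ∀ κ r : F, x ≠ κ • a + r • v) (t : F) :
    ∃ u : V, ω u a = 0 ∧ ω u v = 0 ∧ ω u x = t := by
  have hx : x ∉ Submodule.span F ({a, v} : Set V) := by
    rw [Submodule.mem_span_pair]
    rintro ⟨κ, r, e⟩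
    exact h κ r e.symm
  obtain ⟨φ, hφ, hφ'⟩ := Submodule.exists_dual_map_eq_bot_of_notMem hx inferInstance
  have hz : ∀ y ∈ Submodule.span F ({a, v} : Set V), φ y = 0 := fun y hy =>
    (Submodule.mem_bot F).1 (hφ' ▸ Submodule.mem_map_of_mem hy)
  obtain ⟨u, hu⟩ := exists_form_eq ((t / φ x) • φ)
  refine ⟨u, ?_, ?_, ?_⟩ <;> rw [hu]
  · simp [hz a (Submodule.subset_span (by simp))]
  · simp [hz v (Submodule.subset_span (by simp))]
  · simp [div_mul_cancel₀ _ hφ]

/-- The vectors orthogonal to a point. -/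
def perpGrp (a : V) : AddSubgroup V where
  carrier := {v | ω v a = 0}
  zero_mem' := form_zero_left a
  add_mem' := fun {x y} hx hy => show ω (x + y) a = 0 by
    rw [sympForm_add_left, show ω x a = 0 from hx, show ω y a = 0 from hy, add_zero]
  neg_mem' := fun {x} hx => show ω (-x) a = 0 by
    rw [form_neg_left, show ω x a = 0 from hx, neg_zero]

/-- The multiples of a vector. -/
def lineGrp (a : V) : AddSubgroup V :=
  (AddMonoidHom.mk' (fun κ : F => κ • a) fun x y => add_smul x y a).range

lemma mem_lineGrp {a v : V} : v ∈ lineGrp a ↔ ∃ κ : F, κ • a = v := Iff.rfl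

lemma lineGrp_le (a : V) : lineGrp a ≤ perpGrp a := by
  rintro _ ⟨κ, rfl⟩
  show ω (κ • a) a = 0
  rw [sympForm_smul_left, sympForm_self, mul_zero]

variable [Finite F]

lemma card_lineGrp {a : V} (ha : a ≠ 0) : Nat.card (lineGrp a) = q :=
  (Nat.card_congr (AddMonoidHom.ofInjective (f := AddMonoidHom.mk' (fun κ : F => κ • a)
    fun x y => add_smul x y a) (smul_left_injective F ha)).toEquiv).symm

variable {Ω : Type*} [MulAction (Matrix.symplecticGroup (Fin m) F) Ω]

variable (F m Ω) in
/-- The hypotheses of the bound: few points, and every transvection group moves every point. -/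
structure Setup : Prop where
  two_le : 2 ≤ m
  three_le : 3 ≤ Nat.card F
  exc : ¬(m = 2 ∧ Nat.card F = 3)
  small : (Nat.card F - 1) * Nat.card Ω + 1 < Nat.card F ^ (2 * m)
  moved : ∀ a : Fin m ⊕ Fin m → F, a ≠ 0 → ∀ z : Ω, cz a z ≠ ⊤

lemma Setup.qQ (S : Setup F m Ω) :
    ∃ Q : ℕ, q ^ (2 * m) = q * q * Q ∧ q ^ (2 * m - 2) = Q ∧ q * q ≤ Q := by
  obtain ⟨k, rfl⟩ : ∃ k, m = k + 2 := ⟨m - 2, by have := S.two_le; omega⟩
  refine ⟨_, ?_, rfl, ?_⟩
  · rw [show 2 * (k + 2) - 2 = 2 * k + 2 by omega, show 2 * (k + 2) = 2 * k + 2 + 2 by omega,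
      pow_add _ _ 2, sq]
    ring
  · rw [← sq]
    exact Nat.pow_le_pow_right Nat.card_pos (by omega)

lemma card_perpGrp (S : Setup F m Ω) {a : V} (ha : a ≠ 0) :
    Nat.card (perpGrp a) = q * q ^ (2 * m - 2) := by
  obtain ⟨Q, hQ, hQ', -⟩ := S.qQ
  have h := card_perp (m := m) ha
  refine Nat.eq_of_mul_eq_mul_right (Nat.card_pos (α := F)) ?_
  rw [hQ']
  rw [hQ] at h
  exact h.trans (by ring)

lemma az_le (a : V) (z : Ω) : az a z ≤ perpGrp a := fun _ h => h.1

lemma line_le_az (a : V) (z : Ω) : lineGrp a ≤ az a z := by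
  rintro _ ⟨κ, rfl⟩; exact smul_mem_az a z κ

/-- Commutators of fixed root elements are fixed transvections. -/
lemma two_form_mem {a x y : V} {z : Ω} (hx : x ∈ az a z) (hy : y ∈ az a z) :
    2 * ω x y ∈ cz a z := by
  obtain ⟨hxa, c, hc⟩ := hx
  obtain ⟨hya, c', hc'⟩ := hy
  have h1 : el a (x + y) (c + c' + ω y x) • z = z := by rw [← el_mul hxa hya, mul_smul, hc', hc]
  have h2 : el a (x + y) (c + c' + ω x y) • z = z := by
    rw [add_comm x y, show c + c' = c' + c from add_comm _ _, ← el_mul hya hxa, mul_smul, hc, hc']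
  have := (el_fix_iff (by rw [sympForm_add_left, hxa, hya, add_zero]) h1).1 h2
  rwa [show c + c' + ω x y - (c + c' + ω y x) = 2 * ω x y by rw [sympForm_skew y x]; ring] at this

lemma exists_annihilator {C : AddSubgroup F} (hC : C ≠ ⊤) :
    ∃ t : F, t ≠ 0 ∧ ∀ c ∈ C, chi F (t * c) = 1 := by
  let β₀ : F →+ F →+ F := AddMonoidHom.mul
  have h1 := card_mul_perpG (β := β₀) (fun x h => eq_zero_of_chi h) C
  by_contra hc
  push Not at hc
  have hbot : perpG β₀ C = ⊥ := by
    rw [AddSubgroup.eq_bot_iff_forall]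
    intro t ht
    by_contra ht0
    obtain ⟨c, hcC, hne⟩ := hc t ht0
    exact hne (ht c hcC)
  rw [hbot, AddSubgroup.card_bot, mul_one] at h1
  exact hC (AddSubgroup.eq_top_of_card_eq C h1)

/-- In odd characteristic the projection is isotropic. -/
lemma card_az_le_dual (h2 : (2 : F) ≠ 0) {a : V} {z : Ω} (hC : cz a z ≠ ⊤) :
    Nat.card (az a z) ≤ Nat.card (dual (az a z)) := by
  obtain ⟨t, ht, htC⟩ := exists_annihilator hC
  refine Nat.card_le_card_of_injective (fun x : az a z => (⟨(2 * t) • (x : V), mem_dual.2 fun y hy => ?_⟩ :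
    dual (az a z))) fun x y h => Subtype.ext (smul_right_injective V (mul_ne_zero h2 ht) (congrArg Subtype.val h))
  rw [sympForm_smul_left, mul_comm 2 t, mul_assoc]
  exact htC _ (two_form_mem x.2 hy)

/-- The projection is the point's line. -/
def IsT0 (a : V) (z : Ω) : Prop := az a z = lineGrp a

/-- The projection is everything. -/
def IsT1 (a : V) (z : Ω) : Prop := az a z = perpGrp a

/-- The projection is the orthogonal of an isotropic line through the point. -/
def IsLine (a : V) (z : Ω) (v : V) : Prop :=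
  (∀ r : F, v ≠ r • a) ∧ ω v a = 0 ∧ ∀ x, x ∈ az a z ↔ ω x a = 0 ∧ ω x v = 0

/-- The translates of a subgroup by the stabiliser of a point. -/
def members (a : V) (D : AddSubgroup V) : Set (AddSubgroup V) :=
  {B | ∃ g : Sp, g • a = a ∧ g • D = B}

variable {a : Fin m ⊕ Fin m → F} {D : AddSubgroup (Fin m ⊕ Fin m → F)}

lemma card_member {B : AddSubgroup V} (hB : B ∈ members a D) : Nat.card B = Nat.card D := by
  obtain ⟨g, -, rfl⟩ := hB
  exact (Nat.card_congr
    { toFun := fun x => ⟨g • (x : V), AddSubgroup.smul_mem_pointwise_smul _ g D x.2⟩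
      invFun := fun y => ⟨g⁻¹ • (y : V), mem_smul_iff.1 y.2⟩
      left_inv := fun x => Subtype.ext (inv_smul_smul g (x : V))
      right_inv := fun y => Subtype.ext (smul_inv_smul g (y : V)) }).symm

lemma member_bounds (h1 : lineGrp a ≤ D) (h2 : D ≤ perpGrp a) {B : AddSubgroup V}
    (hB : B ∈ members a D) : lineGrp a ≤ B ∧ B ≤ perpGrp a := by
  obtain ⟨g, hg, rfl⟩ := hB
  refine ⟨?_, fun x hx => ?_⟩
  · rintro _ ⟨κ, rfl⟩
    rw [mem_smul_iff]
    show g⁻¹ • κ • a ∈ D
    rw [smul_comm, inv_smul_eq_iff.2 hg.symm]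
    exact h1 ⟨κ, rfl⟩
  · have := h2 (mem_smul_iff.1 hx)
    show ω x a = 0
    have h : ω (g⁻¹ • x) a = 0 := this
    rwa [← sympForm_smul g, smul_inv_smul, hg] at h

/-- The number of translates through a vector. -/
noncomputable def mult (a : V) (D : AddSubgroup V) (u : V) : ℕ :=
  Nat.card {B : members a D // u ∈ (B : AddSubgroup V)}

lemma mult_const (ha : a ≠ 0) {u u' : V} (hu : u ∈ perpGrp a) (hu' : u' ∈ perpGrp a)
    (hul : u ∉ lineGrp a) (hul' : u' ∉ lineGrp a) : mult a D u = mult a D u' := by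
  obtain ⟨g, hg, hgu⟩ := exists_sp_map_indep a u a u'
    (indep_of_forall_ne ha fun r h => hul ⟨r, h.symm⟩)
    (indep_of_forall_ne ha fun r h => hul' ⟨r, h.symm⟩)
    (by rw [form_comm.1 (show ω u a = 0 from hu), form_comm.1 (show ω u' a = 0 from hu')])
  have hgi : g⁻¹ • a = a := inv_smul_eq_iff.2 hg.symm
  refine Nat.card_congr
    { toFun := fun B => ⟨⟨g • (B.1 : AddSubgroup V), ?_⟩, ?_⟩
      invFun := fun B => ⟨⟨g⁻¹ • (B.1 : AddSubgroup V), ?_⟩, ?_⟩
      left_inv := fun B => Subtype.ext (Subtype.ext (inv_smul_smul g (B.1 : AddSubgroup V)))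
      right_inv := fun B => Subtype.ext (Subtype.ext (smul_inv_smul g (B.1 : AddSubgroup V))) }
  · obtain ⟨h, hh, e⟩ := B.1.2
    exact ⟨g * h, by rw [mul_smul, hh, hg], by rw [mul_smul, e]⟩
  · rw [← hgu]; exact AddSubgroup.smul_mem_pointwise_smul _ g _ B.2
  · obtain ⟨h, hh, e⟩ := B.1.2
    exact ⟨g⁻¹ * h, by rw [mul_smul, hh, hgi], by rw [mul_smul, e]⟩
  · show u ∈ g⁻¹ • (B.1 : AddSubgroup V)
    rw [mem_smul_iff, inv_inv, hgu]; exact B.2

/-- The incidence equation of the translates. -/
lemma incidence (h1 : lineGrp a ≤ D) (h2 : D ≤ perpGrp a) (ha : a ≠ 0) {u : V}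
    (hu : u ∈ perpGrp a) (hul : u ∉ lineGrp a) :
    Nat.card (members a D) * (Nat.card D - q) = mult a D u * (Nat.card (perpGrp a) - q) := by
  classical
  have := Fintype.ofFinite (members a D)
  have hd : ∀ B : AddSubgroup V, lineGrp a ≤ B →
      Nat.card B - q = Nat.card {x : V // x ∈ B ∧ x ∉ lineGrp a} := fun B hB => by
    have : Fintype V := Fintype.ofFinite V
    rw [← card_lineGrp ha, Nat.card_eq_fintype_card, Nat.card_eq_fintype_card, Nat.card_eq_fintype_card,
      Fintype.card_subtype, Fintype.card_subtype, Fintype.card_subtype, ← Finset.card_sdiff_of_subset]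
    · congr 1; ext; simp
    · intro x; simpa using fun h => hB h
  have hl : Nat.card (members a D) * (Nat.card D - q)
      = Nat.card (Σ B : members a D, {x : V // x ∈ (B : AddSubgroup V) ∧ x ∉ lineGrp a}) := by
    rw [Nat.card_sigma, Finset.sum_congr rfl fun (B : members a D) _ => show _ = Nat.card D - q by
      rw [← hd _ (member_bounds h1 h2 B.2).1, card_member B.2],
      Finset.sum_const, Finset.card_univ, smul_eq_mul, Nat.card_eq_fintype_card]
  have := Fintype.ofFinite {x : V // x ∈ perpGrp a ∧ x ∉ lineGrp a}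
  rw [hl, hd _ (lineGrp_le a)]
  refine (Nat.card_congr (β := Σ x : {x : V // x ∈ perpGrp a ∧ x ∉ lineGrp a},
    {B : members a D // (x : V) ∈ (B : AddSubgroup V)})
    { toFun := fun p => ⟨⟨p.2.1, (member_bounds h1 h2 p.1.2).2 p.2.2.1, p.2.2.2⟩, p.1, p.2.2.1⟩
      invFun := fun p => ⟨p.2.1, p.1.1, p.2.2, p.1.2.2⟩
      left_inv := fun _ => rfl
      right_inv := fun _ => rfl }).trans ?_
  rw [Nat.card_sigma, Finset.sum_congr rfl fun (x : {x : V // x ∈ perpGrp a ∧ x ∉ lineGrp a}) _ =>
    show Nat.card {B : members a D // (x : V) ∈ (B : AddSubgroup V)} = mult a D u from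
      mult_const ha x.2.1 hu x.2.2 hul,
    Finset.sum_const, Finset.card_univ, smul_eq_mul, Nat.card_eq_fintype_card, mul_comm]

/-- A translate is kept by the transvections orthogonal to one of its vectors, if there are few
translates through that vector. -/
lemma translate_fixed {p : ℕ} [Fact p.Prime] [CharP F p] {u v : V} (hva : ω v a = 0) (huv : ω u v = 0)
    (hμ : mult a D u < p) {B : AddSubgroup V} (hB : B ∈ members a D) (huB : u ∈ B) :
    ∀ x ∈ B, ω x v ≠ 0 → ∀ κ : F, κ • v ∈ B := by
  classical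
  intro x hx hxv κ
  have hT : ∀ c : F, spT v c • a = a ∧ spT v c • u = u := fun c => by
    refine ⟨?_, ?_⟩ <;> rw [spT_smul]
    · rw [form_comm.1 hva]; simp
    · rw [huv]; simp
  let X := {B : members a D // u ∈ (B : AddSubgroup V)}
  let act : F → X → X := fun c B => ⟨⟨spT v c • (B.1 : AddSubgroup V), by
      obtain ⟨h, hh, e⟩ := B.1.2
      exact ⟨spT v c * h, by rw [mul_smul, hh, (hT c).1], by rw [mul_smul, e]⟩⟩, by
      have := AddSubgroup.smul_mem_pointwise_smul u (spT v c) _ B.2
      rwa [(hT c).2] at this⟩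
  have hadd : ∀ c d B, act c (act d B) = act (c + d) B := fun c d B => by
    refine Subtype.ext (Subtype.ext ?_)
    show spT v c • spT v d • (B.1 : AddSubgroup V) = _
    rw [smul_smul, spT_add]
  have hzero : ∀ B, act 0 B = B := fun B => Subtype.ext (Subtype.ext (by
    show spT v (0 : F) • (B.1 : AddSubgroup V) = _
    rw [spT_zero, one_smul]))
  set c := κ / ω x v
  let σ : Equiv.Perm X :=
    { toFun := act c
      invFun := act (-c)
      left_inv := fun B => by rw [hadd, neg_add_cancel, hzero]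
      right_inv := fun B => by rw [hadd, add_neg_cancel, hzero] }
  have hpow : ∀ n : ℕ, ∀ B, (σ ^ n) B = act ((n : F) * c) B := by
    intro n
    induction n with
    | zero => intro B; simp [hzero]
    | succ n ih =>
      intro B
      rw [pow_succ', Equiv.Perm.mul_apply, ih]
      show act c (act _ B) = _
      rw [hadd, Nat.cast_succ]; congr 1; ring
  have hord : orderOf σ ∣ p := orderOf_dvd_of_pow_eq_one (Equiv.ext fun B => by
    rw [hpow, CharP.cast_eq_zero F p, zero_mul, hzero, Equiv.Perm.one_apply])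
  have hσ : σ = 1 := by
    rcases (Nat.dvd_prime Fact.out).1 hord with h | h
    · exact orderOf_eq_one_iff.1 h
    · have hd := orderOf_dvd_natCard σ
      rw [h, Nat.card_perm, (Fact.out : p.Prime).dvd_factorial] at hd
      exact absurd hd (not_le.2 hμ)
  have hBσ : spT v c • B = B :=
    congrArg (fun B : X => (B.1 : AddSubgroup V)) (DFunLike.congr_fun hσ ⟨⟨B, hB⟩, huB⟩)
  have h : spT v c • x ∈ B := hBσ ▸ AddSubgroup.smul_mem_pointwise_smul x (spT v c) B hx
  rw [spT_smul, div_mul_cancel₀ _ hxv] at h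
  simpa using sub_mem h hx

end CfsgLib.MinIndexSympGen
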