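import Cfsg.Agent.Lib.MinIndex.SympGen.Classify

/-!
Uniqueness of the orbits with given invariants, and the number of orbits with full projection in
characteristic two.
-/

set_option autoImplicit false
set_option linter.unusedSectionVars false

namespace CfsgLib.MinIndexSympGen

open CfsgLib.ClassicalLinear CfsgLib.MinIndexOrth MulAction Module
open scoped Pointwise

universe u

variable {F : Type u} [Field F] [Finite F] {m : ℕ}

local notation "V" => (Fin m ⊕ Fin m → F)
local notation "Sp" => Matrix.symplecticGroup (Fin m) F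
local notation "ω" => Cfsg.sympForm m F
local notation "q" => Nat.card F

variable {Ω : Type*} [MulAction (Matrix.symplecticGroup (Fin m) F) Ω] [Finite Ω]

lemma az_smul {a : V} {g : Sp} (hg : g • a = a) (z : Ω) : az a (g • z) = g • az a z := by
  ext x
  rw [mem_smul_iff, ← mem_az_conj g (x := g⁻¹ • x) (a := a) (z := z), smul_inv_smul, hg]

lemma card_az_smul (g : Sp) (a : V) (z : Ω) : Nat.card (az (g • a) (g • z)) = Nat.card (az a z) :=
  (Nat.card_eq_of_bijective (fun x : az a z => (⟨g • (x : V), (mem_az_conj g z).2 x.2⟩ : az (g • a) (g • z)))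
    ⟨fun x y h => Subtype.ext (smul_left_cancel g (congrArg Subtype.val h)),
      fun y => ⟨⟨g⁻¹ • (y : V), (mem_az_conj g z).1 (by rw [smul_inv_smul]; exact y.2)⟩,
        Subtype.ext (smul_inv_smul g (y : V))⟩⟩).symm

lemma el_fix_conj {a x : V} {c : F} {z : Ω} {g : Sp} (hg : g • a = a) (h : el a x c • z = z) :
    el a (g • x) c • g • z = g • z := by
  have e := el_conj g a x c
  rw [hg] at e
  rw [← e, mul_smul, mul_smul, inv_smul_smul, h]

variable (S : Setup F m Ω)
include S

lemma isT0_iff {a : V} (ha : a ≠ 0) (z : Ω) : IsT0 a z ↔ Nat.card (az a z) = q :=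
  ⟨fun h => by rw [show az a z = lineGrp a from h, card_lineGrp ha],
    fun h => (AddSubgroup.eq_of_le_of_card_ge (line_le_az a z) (by rw [card_lineGrp ha, h])).symm⟩

lemma isT1_iff {a : V} (ha : a ≠ 0) (z : Ω) :
    IsT1 a z ↔ Nat.card (az a z) = q * q ^ (2 * m - 2) :=
  ⟨fun h => by rw [show az a z = perpGrp a from h, card_perpGrp S ha],
    fun h => AddSubgroup.eq_of_le_of_card_ge (az_le a z) (by rw [card_perpGrp S ha, h])⟩

lemma card_dual_T0 {a : V} (ha : a ≠ 0) {z : Ω} (h : IsT0 a z) :
    Nat.card (dual (az a z)) = q * q ^ (2 * m - 2) := by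
  obtain ⟨Q, hQ, hQ', -⟩ := S.qQ
  have h1 := card_mul_dual (az a z)
  rw [(isT0_iff S ha z).1 h, hQ] at h1
  rw [hQ']
  exact Nat.eq_of_mul_eq_mul_left (Nat.card_pos (α := F)) (h1.trans (by ring))

lemma card_dual_T1 {a : V} (ha : a ≠ 0) {z : Ω} (h : IsT1 a z) : Nat.card (dual (az a z)) = q := by
  obtain ⟨Q, hQ, hQ', hQ2⟩ := S.qQ
  have h1 := card_mul_dual (az a z)
  rw [(isT1_iff S ha z).1 h, hQ, hQ'] at h1
  refine Nat.eq_of_mul_eq_mul_left (show 0 < q * Q from ?_) (h1.trans (by ring))
  have := S.three_le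
  exact Nat.mul_pos (by omega) (lt_of_lt_of_le (Nat.mul_pos (by omega) (by omega)) hQ2)

/-- The translates of a projection. -/
lemma exists_translates {a : V} (z : Ω) :
    ∃ g : members a (dual (az a z)) → Sp, (∀ B, g B • a = a) ∧
      Function.Injective fun B => g B • az a z := by
  choose g hg hgD using fun B : members a (dual (az a z)) => B.2
  refine ⟨g, hg, fun B B' h => Subtype.ext ?_⟩
  have := congrArg dual h
  simp only [dual_smul, hgD] at this
  exact this

/-- Outside the full projection, no family of orbits can be doubled. -/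
lemma family_contra {a : V} (ha : a ≠ 0) {z : Ω} (h1 : ¬ IsT1 a z) {ι : Type*} [Finite ι] (zk : ι → Ω)
    (hA : ∀ k, az a (zk k) = az a z) (hCk : ∀ k, cz a (zk k) = cz a z)
    (hK : ∀ k k', zk k' ∈ orbit (uGrp a) (zk k) → k = k') (hn : 1 ≤ Nat.card ι)
    (h : 2 ≤ Nat.card ι ∨ ((2 : F) = 0 ∧ cz a z ≠ ⊥)) : False := by
  obtain ⟨Q, hQ, hQ', hQ2⟩ := S.qQ
  have hsmall := S.small
  rw [hQ] at hsmall
  have hq := S.three_le
  obtain ⟨q₁, hq₁⟩ : ∃ q₁, q = q₁ + 1 := ⟨q - 1, by omega⟩
  rw [hq₁, Nat.add_sub_cancel] at hsmall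
  have hkind := Nat.mul_le_mul_left q (card_kind_le a z)
  by_cases h0 : IsT0 a z
  · have hw := weight_le ha (S.moved a ha z) zk hA hCk hK (fun _ : Unit => (1 : Sp))
      (fun _ => one_smul _ a) (fun _ _ _ => rfl) hn h
    rw [show Nat.card Unit = 1 from Nat.card_unique, one_mul, card_dual_T0 S ha h0, hQ'] at hw
    have h5 : (q + 2) * Q ≤ Nat.card Ω :=
      Nat.le_of_mul_le_mul_left (le_trans (by rw [mul_left_comm]) (hw.trans hkind)) (by omega)
    have h6 := Nat.mul_le_mul_left q₁ h5
    rw [hq₁] at h6 hq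
    nlinarith
  · obtain ⟨v, -, hβ, hD⟩ := classify S ha z h0 h1
    obtain ⟨g, hg, hgJ⟩ := exists_translates S (a := a) z
    have hw := weight_le ha (S.moved a ha z) zk hA hCk hK g hg hgJ hn h
    rw [hD] at hw
    set β := Nat.card (members a (dual (az a z)))
    rw [hQ', hq₁, Nat.add_sub_cancel] at hβ
    have h5 : (q + 2) * β * q ≤ Nat.card Ω := by
      have e : (q + 2) * (β * (q * q)) = q * ((q + 2) * β * q) := by ring
      rw [e] at hw
      exact Nat.le_of_mul_le_mul_left (hw.trans hkind) (by omega)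
    have h6 := Nat.mul_le_mul_left q₁ h5
    rw [hq₁] at h6 hq hQ2
    nlinarith

/-- Outside the full projection, the orbit with given invariants is unique. -/
theorem unique_orbit {a : V} (ha : a ≠ 0) {z z' : Ω} (h1 : ¬ IsT1 a z) (hA : az a z' = az a z)
    (hC : cz a z' = cz a z) : z' ∈ orbit (uGrp a) z := by
  by_contra hne
  refine family_contra S ha h1 (fun b : Bool => if b then z else z') (fun b => ?_) (fun b => ?_)
    (fun b b' h => ?_) Nat.card_pos (Or.inl (by simp))
  · rcases b with _ | _ <;> simp [hA]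
  · rcases b with _ | _ <;> simp [hC]
  · rcases b with _ | _ <;> rcases b' with _ | _
    · rfl
    · refine absurd ?_ hne
      simp only [Bool.false_eq_true, if_false, if_true] at h
      rw [orbit_eq_iff.2 h]; exact mem_orbit_self z'
    · exact absurd (by simpa using h) hne
    · rfl

/-- In characteristic two the fixed transvections are trivial outside the full projection. -/
theorem cz_eq_bot (h2 : (2 : F) = 0) {a : V} (ha : a ≠ 0) {z : Ω} (h1 : ¬ IsT1 a z) :
    cz a z = ⊥ := by
  by_contra hC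
  exact family_contra S ha h1 (fun _ : PUnit.{1} => z) (fun _ => rfl) (fun _ => rfl)
    (fun _ _ _ => rfl) Nat.card_pos (Or.inr ⟨h2, hC⟩)

/-- An element fixing the point of the root group and the projection keeps the orbit. -/
theorem exists_el_eq {a : V} (ha : a ≠ 0) {z : Ω} (h1 : ¬ IsT1 a z) {g : Sp} (hg : g • a = a)
    (hgA : g • az a z = az a z) :
    ∃ y c, ω y a = 0 ∧ g • z = el a y c • z := by
  have hA : az a (g • z) = az a z := by rw [az_smul hg, hgA]
  have hC : cz a (g • z) = cz a z := by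
    have := cz_conj (a := a) g z
    rwa [hg] at this
  obtain ⟨⟨_, y, hy, c, rfl⟩, hu⟩ := unique_orbit S ha h1 hA hC
  exact ⟨y, c, hy, hu.symm⟩

omit S in
lemma exists_sqrt (h2 : (2 : F) = 0) (d : F) : ∃ s : F, s * s = d := by
  have hinj : Function.Injective (fun s : F => s * s) := fun s t h => by
    have h' : (s - t) * (s - t) = 0 := by linear_combination h + (t * t - s * t) * h2
    exact sub_eq_zero.1 (mul_self_eq_zero.1 h')
  exact Finite.injective_iff_surjective.1 hinj d

/-- Two transvections cannot both keep the elements of a full projection. -/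
lemma pres_unique (h2 : (2 : F) = 0) {a : V} (ha : a ≠ 0) {z : Ω} {v : V} (hv : ω v a = 0) {c c' : F}
    (h : ∀ η : F, el a (η • v) (η * η / c) • z = z) (h' : ∀ η : F, el a (η • v) (η * η / c') • z = z) :
    c = c' := by
  by_contra hne
  refine S.moved a ha z (eq_top_iff.2 fun d _ => ?_)
  have hd0 : 1 / c' - 1 / c ≠ 0 := fun e => hne (inv_injective (by
    rw [one_div, one_div, sub_eq_zero] at e; exact e.symm))
  obtain ⟨η, hη⟩ := exists_sqrt h2 (d / (1 / c' - 1 / c))
  have := (el_fix_iff (by rw [sympForm_smul_left, hv, mul_zero]) (h η)).1 (h' η)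
  rwa [show η * η / c' - η * η / c = η * η * (1 / c' - 1 / c) by ring, hη,
    div_mul_cancel₀ _ hd0] at this

/-- A full projection in characteristic two: at least one more orbit than lines of the quotient. -/
theorem card_kind_T1 (h2 : (2 : F) = 0) {a : V} (ha : a ≠ 0) {z : Ω} (hT : IsT1 a z) :
    q * (q ^ (2 * m - 2) + q) ≤ (q - 1) * Nat.card (kind a z) + 2 * q := by
  classical
  obtain ⟨Q, hQ, hQ', hQ2⟩ := S.qQ
  rw [hQ']
  have hq := S.three_le
  have hperp := card_perpGrp S ha
  rw [hQ'] at hperp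
  let E := {v : V // v ∈ perpGrp a ∧ v ∉ lineGrp a}
  have hfull : ∀ x : V, ω x a = 0 → ∃ φ, el a x φ • z = z := fun x hx =>
    ((show x ∈ az a z by rw [show az a z = perpGrp a from hT]; exact hx)).2
  have hex : ∀ v : E, ∃ c : F, c ≠ 0 ∧ ¬ ∀ η : F, el a (η • (v : V)) (η * η / c) • z = z := by
    intro v
    obtain ⟨c, hc0, hc1⟩ : ∃ c : F, c ≠ 0 ∧ c ≠ 1 := by
      have := Fintype.ofFinite F
      obtain ⟨c, -, hc⟩ := Finset.exists_mem_notMem_of_card_lt_card (s := ({0, 1} : Finset F))
        (t := Finset.univ) (lt_of_le_of_lt Finset.card_le_two (by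
          rw [Finset.card_univ, ← Nat.card_eq_fintype_card]; omega))
      simp only [Finset.mem_insert, Finset.mem_singleton, not_or] at hc
      exact ⟨c, hc.1, hc.2⟩
    by_contra hc
    push Not at hc
    exact hc1 (pres_unique S h2 ha v.2.1 (hc c hc0) (hc 1 one_ne_zero))
  choose c hc0 hc using hex
  have hTa : ∀ (w : E) (d : F), spT (w : V) d • a = a := fun w d => by
    rw [spT_smul, form_comm.1 (show ω (w : V) a = 0 from w.2.1)]; simp
  -- a point in the orbit of a translate shows that the transvection keeps the projection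
  have key : ∀ (w : E) (z0 : Ω), (∀ t : F, ∃ x : V, ω x a = 0 ∧ ω x (w : V) = t ∧
      ∀ φ, el a x φ • z = z → el a x φ • z0 = z0) →
      spT (w : V) (c w) • z ∈ orbit (uGrp a) z0 → False := by
    intro w z0 hz0 horb
    refine hc w fun η => ?_
    obtain ⟨x, hxa, hxw, hx0⟩ := hz0 (η / c w)
    obtain ⟨φ, hφ⟩ := hfull x hxa
    obtain ⟨⟨_, y, hy, e, rfl⟩, hu⟩ := horb
    change el a y e • z0 = _ at hu
    have h1 : el a x φ • (spT (w : V) (c w) • z) = spT (w : V) (c w) • z := by
      rw [← hu, ← mul_smul,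
        show el a x φ * el a y e = el a y e * el a x φ by
          rw [el_mul hxa hy, el_mul hy hxa, add_comm x y, sympForm_skew y x]
          congr 1; linear_combination (-(ω x y)) * h2,
        mul_smul, hx0 φ hφ]
    have hx' : spT (w : V) (c w) • x = x + η • (w : V) := by
      rw [spT_smul, hxw, mul_div_cancel₀ _ (hc0 w)]
    have hxa' : ω (spT (w : V) (c w) • x) a = 0 := by
      rw [hx', sympForm_add_left, hxa, sympForm_smul_left, show ω (w : V) a = 0 from w.2.1]; ring
    have h4 : el a (x + η • (w : V)) φ • (spT (w : V) (c w) • z) = spT (w : V) (c w) • z := by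
      rw [← hx']
      exact el_fix_conj (hTa w (c w)) hφ
    have hsum : el a x φ * el a (x + η • (w : V)) φ = el a (η • (w : V)) (η * η / c w) := by
      rw [el_mul hxa (hx' ▸ hxa'), sympForm_add_left, sympForm_smul_left, sympForm_self,
        sympForm_skew (w : V) x, hxw]
      have e1 : x + (x + η • (w : V)) = η • (w : V) := by
        have : (2 : F) • x = 0 := by rw [h2, zero_smul]
        rw [← add_assoc, ← two_smul F x, this, zero_add]
      rw [e1]; congr 1
      linear_combination (φ - η * (η / c w)) * h2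
    have h5 : el a (η • (w : V)) (η * η / c w) • (spT (w : V) (c w) • z) = spT (w : V) (c w) • z := by
      rw [← hsum, mul_smul, h4, h1]
    have hw' : spT (w : V) (c w) • η • (w : V) = η • (w : V) := by
      rw [spT_smul, sympForm_smul_left, sympForm_self]; simp
    refine smul_left_cancel (spT (w : V) (c w)) ?_
    refine Eq.trans ?_ h5
    have e := el_conj (spT (w : V) (c w)) a (η • (w : V)) (η * η / c w)
    rw [hTa, hw'] at e
    rw [← mul_smul, mul_inv_eq_iff_eq_mul.1 e, mul_smul]
  let o : E → Set Ω := fun v => orbit (uGrp a) (spT (v : V) (c v) • z)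
  have hz : ∀ v : E, o v ≠ orbit (uGrp a) z := fun v h =>
    key v z (fun t => by
      obtain ⟨x, hx1, hx2⟩ := exists_values (fun r h => v.2.2 ⟨r, h.symm⟩) ha (0 : F) t
      exact ⟨x, hx1, hx2, fun _ h => h⟩) (h ▸ mem_orbit_self _)
  have hspan : ∀ v w : E, o v = o w → ∃ κ r : F, (w : V) = κ • a + r • (v : V) := by
    intro v w h
    by_contra hc'
    push Not at hc'
    refine key w (spT (v : V) (c v) • z) (fun t => ?_)
      ((show spT (w : V) (c w) • z ∈ o v by rw [h]; exact mem_orbit_self _))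
    obtain ⟨x, hx1, hx2, hx3⟩ := exists_perp_two hc' t
    refine ⟨x, hx1, hx3, fun φ hφ => ?_⟩
    have hxv : spT (v : V) (c v) • x = x := by rw [spT_smul, hx2]; simp
    have e := el_fix_conj (hTa v (c v)) hφ
    rwa [hxv] at e
  let R : Set (Set Ω) := insert (orbit (uGrp a) z) (Set.range o)
  have hrep : ∀ r : R, ∃ w : Ω, orbit (uGrp a) w = r.1 ∧ az a w = az a z ∧ cz a w = cz a z := by
    rintro ⟨r, rfl | ⟨v, rfl⟩⟩
    · exact ⟨z, rfl, rfl, rfl⟩
    · refine ⟨_, rfl, ?_, ?_⟩
      · rw [az_smul (hTa v (c v))]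
        refine AddSubgroup.ext fun x => ?_
        rw [mem_smul_iff, show az a z = perpGrp a from hT]
        show ω _ a = 0 ↔ ω x a = 0
        rw [← sympForm_smul (spT (v : V) (c v)), smul_inv_smul, hTa]
      · have := cz_conj (a := a) (spT (v : V) (c v)) z
        rwa [hTa] at this
  choose zk hzk hA hC using hrep
  have hfam := (family_le ha (S.moved a ha z) zk hA hC (fun r r' h => Subtype.ext (by
    rw [← hzk r, ← hzk r', orbit_eq_iff.2 h])) (fun _ : Unit => (1 : Sp))
    (fun _ => one_smul _ a) (fun _ _ _ => rfl)).2 h2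
  rw [show Nat.card Unit = 1 from Nat.card_unique, mul_one, card_dual_T1 S ha hT] at hfam
  -- the fibres
  have hE : Nat.card E + q = q * Q := by
    rw [← hperp, ← card_lineGrp (a := a) ha, ← Nat.card_sum]
    refine Nat.card_eq_of_bijective (Sum.elim (fun x : E => (⟨x.1, x.2.1⟩ : perpGrp a))
      fun y => ⟨y.1, lineGrp_le a y.2⟩) ⟨?_, fun x => ?_⟩
    · rintro (x | x) (y | y) h <;> simp only [Sum.elim_inl, Sum.elim_inr, Subtype.mk.injEq] at h
      · exact congrArg Sum.inl (Subtype.ext h)
      · exact absurd (h ▸ y.2) x.2.2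
      · exact absurd (h ▸ x.2) y.2.2
      · exact congrArg Sum.inr (Subtype.ext h)
    · by_cases hx : (x : V) ∈ lineGrp a
      · exact ⟨Sum.inr ⟨x, hx⟩, rfl⟩
      · exact ⟨Sum.inl ⟨x, x.2, hx⟩, rfl⟩
  have hR : Nat.card E ≤ (Nat.card R - 1) * (q * (q - 1)) := by
    have := Fintype.ofFinite E
    have := Fintype.ofFinite F
    have := Fintype.ofFinite R
    let oR : E → R := fun v => ⟨o v, Or.inr ⟨v, rfl⟩⟩
    have himg : (Finset.univ.image oR).card ≤ Nat.card R - 1 := by
      rw [Nat.card_eq_fintype_card, ← Finset.card_univ,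
        ← Finset.card_erase_of_mem (Finset.mem_univ (⟨orbit (uGrp a) z, Or.inl rfl⟩ : R))]
      refine Finset.card_le_card fun r hr => ?_
      obtain ⟨v, -, rfl⟩ := Finset.mem_image.1 hr
      exact Finset.mem_erase.2 ⟨fun h => hz v (congrArg Subtype.val h), Finset.mem_univ _⟩
    rw [Nat.card_eq_fintype_card, ← Finset.card_univ]
    refine le_trans (Finset.card_le_mul_card_image (Finset.univ : Finset E) (q * (q - 1))
      fun r hr => ?_) (by rw [mul_comm]; exact Nat.mul_le_mul_right _ himg)
    obtain ⟨v, -, rfl⟩ := Finset.mem_image.1 hr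
    have hP : (Finset.univ.filter fun r : F × F => r.2 ≠ 0).card = q * (q - 1) := by
      rw [show (Finset.univ.filter fun r : F × F => r.2 ≠ 0) = Finset.univ ×ˢ (Finset.univ.erase 0) by
        ext r; simp, Finset.card_product, Finset.card_erase_of_mem (Finset.mem_univ _), Finset.card_univ,
        Nat.card_eq_fintype_card]
    rw [← hP]
    refine le_trans (Finset.card_le_card (t := (Finset.univ.filter fun r : F × F => r.2 ≠ 0).image
      fun r => if h : r.1 • a + r.2 • (v : V) ∈ perpGrp a ∧ r.1 • a + r.2 • (v : V) ∉ lineGrp a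
        then ⟨_, h⟩ else v) fun w hw => ?_) Finset.card_image_le
    obtain ⟨κ, r, hκ⟩ := hspan v w ((congrArg Subtype.val (Finset.mem_filter.1 hw).2).symm)
    refine Finset.mem_image.2 ⟨(κ, r), Finset.mem_filter.2 ⟨Finset.mem_univ _, fun h0 => ?_⟩, ?_⟩
    · apply w.2.2
      change r = 0 at h0
      rw [hκ, h0, zero_smul, add_zero]
      exact ⟨κ, rfl⟩
    · rw [dif_pos (show κ • a + r • (v : V) ∈ perpGrp a ∧ κ • a + r • (v : V) ∉ lineGrp a by
        rw [← hκ]; exact w.2)]
      exact Subtype.ext hκ.symm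
  obtain ⟨R₁, hR₁⟩ : ∃ R₁, Nat.card R = R₁ + 1 := by
    have : Nonempty R := ⟨⟨_, Or.inl rfl⟩⟩
    exact ⟨Nat.card R - 1, by have := Nat.card_pos (α := R); omega⟩
  obtain ⟨q₁, hq₁⟩ : ∃ q₁, q = q₁ + 1 := ⟨q - 1, by omega⟩
  rw [hR₁, Nat.add_sub_cancel, hq₁, Nat.add_sub_cancel] at hR
  rw [hR₁] at hfam
  rw [hq₁] at hfam hE ⊢
  rw [Nat.add_sub_cancel]
  nlinarith

end CfsgLib.MinIndexSympGen
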